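import Cfsg.Agent.Lib.McLRec.GData
import Cfsg.Agent.Lib.McLRec.RData
import Cfsg.Agent.Lib.Golay.Core

/-!
# The automorphism group of the graph on 275 points has order at most `2 · |McL|`
-/

set_option autoImplicit false
set_option maxRecDepth 100000
set_option linter.unusedSectionVars false
set_option linter.unusedVariables false
set_option linter.style.longLine false

namespace Cfsg.Agent.Lib.McLRec.Aut

open Cfsg.Agent.Lib.PermComp.Core Cfsg.Agent.Lib.McLRec.GData Cfsg.Agent.Lib.McLRec.RData
open Cfsg.Agent.Lib.Golay.Core (allUpTo allUpTo_iff)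

/-- All 275 bits. -/
def M275 : ℕ := nat_lit 60708402882054033466233184588234965832575213720379360039119137804340758912662765567

theorem M275_eq : M275 = 2 ^ 275 - 1 := by decide +kernel

def adjM (i : ℕ) : ℕ := Nat.land (Nat.shiftRight AT (Nat.mul 275 i)) M275

/-- The adjacency of the graph. -/
def A0 (i j : ℕ) : Bool := bit (adjM i) j

/-- Counting. -/
def cntB (f : ℕ → Bool) (n : ℕ) : ℕ := Nat.rec 0 (fun i ih => Nat.add (cond (f i) 1 0) ih) n

theorem cntB_succ (f : ℕ → Bool) (n : ℕ) : cntB f (n + 1) = cond (f n) 1 0 + cntB f n := rfl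

theorem cntB_eq (f : ℕ → Bool) (n : ℕ) : cntB f n = (Finset.univ.filter fun j : Fin n => f j.1 = true).card := by
  rw [Finset.card_filter, Fin.sum_univ_eq_sum_range (fun j => if f j = true then 1 else 0) n]
  induction n with
  | zero => rfl
  | succ n ih =>
    rw [cntB_succ, Finset.sum_range_succ, ih, add_comm]
    cases f n <;> rfl

/-- The number of neighbours in a mask. -/
noncomputable def cnt (v D : ℕ) : ℕ := force (adjM v) fun a => cntB (fun j => ifB (bit D j) (bit a j)) 275

theorem cnt_eq (v D : ℕ) : cnt v D = (Finset.univ.filter fun j : Fin 275 => bit D j.1 = true ∧ A0 v j.1 = true).card := by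
  unfold cnt
  rw [force_eq, cntB_eq]
  congr 1
  apply Finset.filter_congr
  intro j _
  simp [ifB_eq_true, A0]

/-- The group of the graph. -/
def AutA : Subgroup (Equiv.Perm (Fin 275)) where
  carrier := {σ | ∀ x y : Fin 275, A0 (σ x) (σ y) = A0 x y}
  mul_mem' := by
    intro a b ha hb x y
    show A0 (a (b x)) (a (b y)) = A0 x y
    rw [ha, hb]
  one_mem' := fun x y => rfl
  inv_mem' := by
    intro a ha x y
    have h := ha (a⁻¹ x) (a⁻¹ y)
    have e1 : a (a⁻¹ x) = x := by simp
    have e2 : a (a⁻¹ y) = y := by simp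
    rw [e1, e2] at h
    exact h.symm

/-- Invariance of a mask. -/
def Inv (σ : Equiv.Perm (Fin 275)) (m : ℕ) : Prop := ∀ v : Fin 275, bit m (σ v).1 = bit m v.1

theorem cnt_inv {σ : Equiv.Perm (Fin 275)} (hσ : σ ∈ AutA) {D : ℕ} (hD : Inv σ D) (v : Fin 275) :
    cnt (σ v).1 D = cnt v.1 D := by
  rw [cnt_eq, cnt_eq]
  symm
  apply Finset.card_bij (fun j _ => σ j)
  · intro j hj
    simp only [Finset.mem_filter, Finset.mem_univ, true_and] at hj ⊢
    rw [hD j, hσ v j]
    exact hj
  · intro a _ b _ h
    exact σ.injective h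
  · intro j hj
    simp only [Finset.mem_filter, Finset.mem_univ, true_and] at hj
    refine ⟨σ⁻¹ j, ?_, by simp⟩
    simp only [Finset.mem_filter, Finset.mem_univ, true_and]
    have h1 := hD (σ⁻¹ j)
    have h2 := hσ v (σ⁻¹ j)
    have e1 : σ (σ⁻¹ j) = j := by simp
    rw [e1] at h1 h2
    rw [← h1, ← h2]
    exact hj

/-- Equivalence of lazily evaluated booleans. -/
noncomputable def iffB (a b : Bool) : Bool := Bool.rec (Bool.rec true false b) b a

theorem iffB_eq_true (a b : Bool) : iffB a b = true ↔ (a = true ↔ b = true) := by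
  cases a <;> cases b <;> simp [iffB]

/-- The check of a token. -/
noncomputable def okTok (t : Tk) (cells : List ℕ) : Bool :=
  force (nthN cells t.i) fun C => force (nthN cells t.j) fun D =>
    Bool.rec
      (allUpTo (fun v => iffB (bit t.m v) (ifB (bit C v) (Nat.beq (cnt v D) t.k))) 275)
      (allUpTo (fun v => iffB (bit t.m v) (ifB (bit C v) (!(bit D v)))) 275)
      (Nat.beq t.k 1000)

theorem nthN_inv {P : ℕ → Prop} (h0 : P 0) {T : List ℕ} (h : ∀ m ∈ T, P m) (j : ℕ) : P (nthN T j) := by
  induction T generalizing j with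
  | nil => exact h0
  | cons a T ih =>
    cases j with
    | zero => exact h a (by simp)
    | succ j => exact ih (fun m hm => h m (by simp [hm])) j

theorem inv_zero (σ : Equiv.Perm (Fin 275)) : Inv σ 0 := by
  intro v
  simp [bit]

theorem inv_nth {σ : Equiv.Perm (Fin 275)} {cells : List ℕ} (h : ∀ m ∈ cells, Inv σ m) (j : ℕ) : Inv σ (nthN cells j) :=
  nthN_inv (inv_zero σ) h j

/-- The tokens give invariant masks. -/
theorem okTok_inv {σ : Equiv.Perm (Fin 275)} (hσ : σ ∈ AutA) {t : Tk} {cells : List ℕ} (h : ∀ m ∈ cells, Inv σ m)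
    (hc : okTok t cells = true) : Inv σ t.m := by
  unfold okTok at hc
  rw [force_eq, force_eq] at hc
  have hC := inv_nth h t.i
  have hD := inv_nth h t.j
  set C := nthN cells t.i
  set D := nthN cells t.j
  intro v
  cases hk : Nat.beq t.k 1000 with
  | true =>
    rw [hk] at hc
    have hall : ∀ x < 275, (bit t.m x = true ↔ (bit C x = true ∧ bit D x = false)) := by
      intro x hx
      have h1 := (iffB_eq_true _ _).1 (allUpTo_iff.1 hc x hx)
      rw [h1, ifB_eq_true]
      simp
    have e1 := hall (σ v).1 (σ v).2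
    have e2 := hall v.1 v.2
    rw [hC v, hD v] at e1
    cases h1 : bit t.m (σ v).1 <;> cases h2 : bit t.m v.1 <;> simp_all
  | false =>
    rw [hk] at hc
    have hall : ∀ x < 275, (bit t.m x = true ↔ (bit C x = true ∧ cnt x D = t.k)) := by
      intro x hx
      have h1 := (iffB_eq_true _ _).1 (allUpTo_iff.1 hc x hx)
      rw [h1, ifB_eq_true]
      constructor
      · rintro ⟨a, b⟩
        exact ⟨a, Nat.eq_of_beq_eq_true b⟩
      · rintro ⟨a, b⟩
        refine ⟨a, ?_⟩
        rw [b]
        exact Nat.beq_refl _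
    have e1 := hall (σ v).1 (σ v).2
    have e2 := hall v.1 v.2
    rw [hC v, cnt_inv hσ hD v] at e1
    cases h1 : bit t.m (σ v).1 <;> cases h2 : bit t.m v.1 <;> simp_all

/-- The check of the tokens of a level. -/
noncomputable def chkT (toks : List Tk) : List ℕ → Bool :=
  List.rec (fun _ => true) (fun t _ ih cells => ifB (okTok t cells) (ih (t.m :: cells))) toks

/-- The cells after the tokens of a level. -/
noncomputable def extT (toks : List Tk) : List ℕ → List ℕ :=
  List.rec (fun cells => cells) (fun t _ ih cells => ih (t.m :: cells)) toks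

theorem ext_inv {σ : Equiv.Perm (Fin 275)} (hσ : σ ∈ AutA) : ∀ (toks : List Tk) (cells : List ℕ), (∀ m ∈ cells, Inv σ m) →
    chkT toks cells = true → ∀ m ∈ extT toks cells, Inv σ m := by
  intro toks
  induction toks with
  | nil =>
    intro cells h _
    exact h
  | cons t toks ih =>
    intro cells h hc
    have hc' : ifB (okTok t cells) (chkT toks (t.m :: cells)) = true := hc
    rw [ifB_eq_true] at hc'
    apply ih (t.m :: cells) _ hc'.2
    intro m hm
    rcases List.mem_cons.1 hm with rfl | hm
    · exact okTok_inv hσ h hc'.1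
    · exact h m hm

/-- The check of the levels. -/
noncomputable def chkLv (ls : List Lv) : List ℕ → Bool :=
  List.rec (motive := fun _ => List ℕ → Bool)
    (fun cells => allUpTo (fun v => memN (Nat.shiftLeft 1 v) cells) 275)
    (fun l _ ih cells =>
      ifB (Nat.blt l.b 275) <| force (nthN cells l.c) fun C =>
        ifB (bit C l.b) <| ifB (Nat.ble (cntB (bit C) 275) l.s) <|
          ifB (chkT l.toks (Nat.shiftLeft 1 l.b :: cells)) <| ih (extT l.toks (Nat.shiftLeft 1 l.b :: cells)))
    ls

/-- The product of the levels. -/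
def prodS : List Lv → ℕ
  | [] => 1
  | l :: ls => l.s * prodS ls

theorem bit_one_shift (v x : ℕ) : bit (Nat.shiftLeft 1 v) x = true ↔ x = v := by
  rw [bit_eq_testBit]
  show (1 <<< v).testBit x = true ↔ _
  rw [Nat.one_shiftLeft, Nat.testBit_two_pow, decide_eq_true_eq, eq_comm]

theorem card_inf_stab (A : Subgroup (Equiv.Perm (Fin 275))) (b : Fin 275) :
    Nat.card (MulAction.stabilizer A b) = Nat.card (A ⊓ MulAction.stabilizer (Equiv.Perm (Fin 275)) b : Subgroup _) := by
  apply Nat.card_congr
  refine ⟨fun x => ⟨x.1.1, x.1.2, x.2⟩, fun x => ⟨⟨x.1, x.2.1⟩, x.2.2⟩, fun x => rfl, fun x => rfl⟩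

theorem card_le_levels : ∀ (ls : List Lv) (cells : List ℕ) (A : Subgroup (Equiv.Perm (Fin 275))), A ≤ AutA →
    (∀ σ ∈ A, ∀ m ∈ cells, Inv σ m) → chkLv ls cells = true → Nat.card A ≤ prodS ls := by
  intro ls
  induction ls with
  | nil =>
    intro cells A _ hinv hc
    have hc' : allUpTo (fun v => memN (Nat.shiftLeft 1 v) cells) 275 = true := hc
    have h1 : A = ⊥ := by
      rw [Subgroup.eq_bot_iff_forall]
      intro σ hσ
      ext v
      have h2 := (memN_eq_true _ _).1 (allUpTo_iff.1 hc' v.1 v.2)
      have h3 := hinv σ hσ _ h2 v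
      have h4 : bit (Nat.shiftLeft 1 v.1) v.1 = true := (bit_one_shift _ _).2 rfl
      rw [h4, bit_one_shift] at h3
      exact h3
    rw [h1]
    simp [prodS]
  | cons l ls ih =>
    intro cells A hA hinv hc
    have hc' : ifB (Nat.blt l.b 275) (force (nthN cells l.c) fun C =>
        ifB (bit C l.b) <| ifB (Nat.ble (cntB (bit C) 275) l.s) <|
          ifB (chkT l.toks (Nat.shiftLeft 1 l.b :: cells)) <| chkLv ls (extT l.toks (Nat.shiftLeft 1 l.b :: cells))) = true := hc
    rw [ifB_eq_true, force_eq, ifB_eq_true, ifB_eq_true, ifB_eq_true] at hc'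
    obtain ⟨h1, h2, h3, h4, h5⟩ := hc'
    have hb : l.b < 275 := Nat.le_of_ble_eq_true h1
    let b : Fin 275 := ⟨l.b, hb⟩
    set C := nthN cells l.c with hC
    -- the stabiliser
    let A' : Subgroup (Equiv.Perm (Fin 275)) := A ⊓ MulAction.stabilizer (Equiv.Perm (Fin 275)) b
    have hA' : A' ≤ AutA := inf_le_left.trans hA
    have hinv' : ∀ σ ∈ A', ∀ m ∈ extT l.toks (Nat.shiftLeft 1 l.b :: cells), Inv σ m := by
      intro σ hσ
      apply ext_inv (hA' hσ) _ _ _ h4
      intro m hm
      rcases List.mem_cons.1 hm with rfl | hm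
      · intro v
        have e : σ b = b := hσ.2
        by_cases hv : v = b
        · subst hv
          rw [e]
        · have e2 : σ v ≠ b := fun h => hv (σ.injective (h.trans e.symm))
          have n1 : ¬ (σ v).1 = l.b := fun h => e2 (Fin.ext h)
          have n2 : ¬ v.1 = l.b := fun h => hv (Fin.ext h)
          have f1 : bit (Nat.shiftLeft 1 l.b) (σ v).1 = false := by
            cases h : bit (Nat.shiftLeft 1 l.b) (σ v).1 with
            | false => rfl
            | true => exact absurd ((bit_one_shift _ _).1 h) n1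
          have f2 : bit (Nat.shiftLeft 1 l.b) v.1 = false := by
            cases h : bit (Nat.shiftLeft 1 l.b) v.1 with
            | false => rfl
            | true => exact absurd ((bit_one_shift _ _).1 h) n2
          rw [f1, f2]
      · exact hinv σ hσ.1 m hm
    have hrec := ih _ A' hA' hinv' h5
    -- orbit-stabiliser
    have hOS : (MulAction.orbit A b).ncard * Nat.card (MulAction.stabilizer A b) = Nat.card A := by
      rw [← MulAction.index_stabilizer, mul_comm]
      exact Subgroup.card_mul_index _
    rw [card_inf_stab] at hOS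
    have horb : (MulAction.orbit A b).ncard ≤ l.s := by
      have hsub : MulAction.orbit A b ⊆ ((Finset.univ.filter fun j : Fin 275 => bit C j.1 = true : Finset (Fin 275)) : Set (Fin 275)) := by
        rintro _ ⟨σ, rfl⟩
        simp only [Finset.coe_filter, Finset.mem_univ, true_and, Set.mem_ofPred_eq]
        have e := inv_nth (hinv σ.1 σ.2) l.c b
        show bit C (σ.1 b).1 = true
        rw [e]
        exact h2
      have h6 := Set.ncard_le_ncard hsub (Finset.finite_toSet _)
      rw [Set.ncard_coe_finset, ← cntB_eq (bit C)] at h6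
      exact h6.trans (Nat.le_of_ble_eq_true h3)
    show Nat.card A ≤ l.s * prodS ls
    rw [← hOS]
    exact Nat.mul_le_mul horb hrec

theorem chk_levels : chkLv LVS [M275] = true := by decide +kernel

theorem prod_levels : prodS LVS = 1796256000 := by decide +kernel

/-- **The bound.** -/
theorem card_AutA_le : Nat.card AutA ≤ 1796256000 := by
  rw [← prod_levels]
  apply card_le_levels LVS [M275] AutA le_rfl _ chk_levels
  intro σ _ m hm
  have hm' : m = M275 := by simpa using hm
  subst hm'
  intro v
  have key : ∀ x < 275, bit M275 x = true := by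
    intro x hx
    rw [bit_eq_testBit, M275_eq, Nat.testBit_two_pow_sub_one]
    simpa using hx
  rw [key _ (σ v).2, key _ v.2]

end Cfsg.Agent.Lib.McLRec.Aut
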