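import Cfsg.Agent.Lib.McLRec.CData

/-!
# The checks of the certificates for the group of degree 112
-/

set_option autoImplicit false
set_option maxRecDepth 100000

namespace Cfsg.Agent.Lib.McLRec.CData

open Cfsg.Agent.Lib.PermComp

theorem chk_PZ : Core.checkAll PZ_n PZ_w PZ_mask PZ_L PZ_maskL PZ_idc PZ_T PZ_prog PZ_levels = true := by
  decide +kernel

theorem ord_PZ : Core.orderC PZ_levels = 3265920 := by decide +kernel

theorem chk_SZ : Core.checkAll SZ_n SZ_w SZ_mask SZ_L SZ_maskL SZ_idc SZ_T SZ_prog SZ_levels = true := by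
  decide +kernel

theorem ord_SZ : Core.orderC SZ_levels = 729 := by decide +kernel

end Cfsg.Agent.Lib.McLRec.CData
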