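import Mathlib

/-!
# Cliques of size 5 in a strongly regular graph with parameters `(275, 112, 30, 56)`
-/

set_option autoImplicit false
set_option linter.unusedSectionVars false
set_option linter.unusedVariables false
set_option linter.style.longLine false

namespace Cfsg.Agent.Lib.McLRec.Del

variable {Ω : Type*} [Fintype Ω] [DecidableEq Ω] {Γ : SimpleGraph Ω} [DecidableRel Γ.Adj]

theorem card_common (h : Γ.IsSRGWith 275 112 30 56) {c c' : Ω} (hadj : Γ.Adj c c') :
    (Finset.univ.filter fun x => Γ.Adj c x ∧ Γ.Adj c' x).card = 30 := by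
  have h1 := h.of_adj c c' hadj
  rw [← h1]
  symm
  apply Fintype.card_of_subtype
  intro x
  simp [SimpleGraph.mem_commonNeighbors]

theorem card_out (h : Γ.IsSRGWith 275 112 30 56) {C : Finset Ω} (hC : C.card = 5)
    (hcl : ∀ c ∈ C, ∀ c' ∈ C, c ≠ c' → Γ.Adj c c') {c : Ω} (hc : c ∈ C) :
    (Cᶜ.filter fun x => Γ.Adj c x).card = 108 := by
  have h1 : (Γ.neighborFinset c).card = 112 := h.regular c
  have h2 : Γ.neighborFinset c = (C.erase c) ∪ (Cᶜ.filter fun x => Γ.Adj c x) := by
    ext x
    simp only [SimpleGraph.mem_neighborFinset, Finset.mem_union, Finset.mem_erase, Finset.mem_filter, Finset.mem_compl]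
    constructor
    · intro hx
      by_cases hxC : x ∈ C
      · left
        exact ⟨hx.ne', hxC⟩
      · right
        exact ⟨hxC, hx⟩
    · rintro (⟨hne, hx⟩ | ⟨_, hx⟩)
      · exact hcl c hc x hx hne.symm
      · exact hx
  have h3 : Disjoint (C.erase c) (Cᶜ.filter fun x => Γ.Adj c x) := by
    rw [Finset.disjoint_left]
    intro x hx hx'
    simp only [Finset.mem_erase] at hx
    simp only [Finset.mem_filter, Finset.mem_compl] at hx'
    exact hx'.1 hx.2
  rw [h2, Finset.card_union_of_disjoint h3, Finset.card_erase_of_mem hc, hC] at h1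
  omega

theorem card_out2 (h : Γ.IsSRGWith 275 112 30 56) {C : Finset Ω} (hC : C.card = 5)
    (hcl : ∀ c ∈ C, ∀ c' ∈ C, c ≠ c' → Γ.Adj c c') {c c' : Ω} (hc : c ∈ C) (hc' : c' ∈ C) (hne : c ≠ c') :
    (Cᶜ.filter fun x => Γ.Adj c x ∧ Γ.Adj c' x).card = 27 := by
  have h1 := card_common h (hcl c hc c' hc' hne)
  have h2 : (Finset.univ.filter fun x => Γ.Adj c x ∧ Γ.Adj c' x) = ((C.erase c).erase c') ∪ (Cᶜ.filter fun x => Γ.Adj c x ∧ Γ.Adj c' x) := by
    ext x
    simp only [Finset.mem_univ, Finset.mem_filter, true_and, Finset.mem_union, Finset.mem_erase, Finset.mem_compl]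
    constructor
    · rintro ⟨h3, h4⟩
      by_cases hxC : x ∈ C
      · left
        exact ⟨h4.ne', h3.ne', hxC⟩
      · right
        exact ⟨hxC, h3, h4⟩
    · rintro (⟨h3, h4, h5⟩ | ⟨_, h3, h4⟩)
      · exact ⟨hcl c hc x h5 h4.symm, hcl c' hc' x h5 h3.symm⟩
      · exact ⟨h3, h4⟩
  have h3 : Disjoint ((C.erase c).erase c') (Cᶜ.filter fun x => Γ.Adj c x ∧ Γ.Adj c' x) := by
    rw [Finset.disjoint_left]
    intro x hx hx'
    simp only [Finset.mem_erase] at hx
    simp only [Finset.mem_filter, Finset.mem_compl] at hx'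
    exact hx'.1 hx.2.2
  rw [h2, Finset.card_union_of_disjoint h3, Finset.card_erase_of_mem (Finset.mem_erase.2 ⟨hne.symm, hc'⟩),
    Finset.card_erase_of_mem hc, hC] at h1
  omega

/-- **A vertex outside a clique of size 5 has exactly two neighbours on it.** -/
theorem delsarte (h : Γ.IsSRGWith 275 112 30 56) {C : Finset Ω} (hC : C.card = 5)
    (hcl : ∀ c ∈ C, ∀ c' ∈ C, c ≠ c' → Γ.Adj c c') {v : Ω} (hv : v ∉ C) :
    (C.filter fun c => Γ.Adj c v).card = 2 := by
  let ι : Ω → Ω → ℤ := fun c x => if Γ.Adj c x then 1 else 0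
  let f : Ω → ℤ := fun x => ∑ c ∈ C, ι c x
  have hf : ∀ x, f x = ((C.filter fun c => Γ.Adj c x).card : ℤ) := by
    intro x
    simp only [f, ι]
    rw [Finset.card_filter]
    push_cast
    rfl
  have hcompl : (Cᶜ).card = 270 := by
    rw [Finset.card_compl, hC]
    have := h.card
    omega
  have s1 : ∑ x ∈ Cᶜ, f x = 540 := by
    simp only [f]
    rw [Finset.sum_comm]
    have : ∀ c ∈ C, ∑ x ∈ Cᶜ, ι c x = 108 := by
      intro c hc
      simp only [ι]
      have := card_out h hC hcl hc
      rw [Finset.card_filter] at this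
      exact_mod_cast this
    rw [Finset.sum_congr rfl this, Finset.sum_const, hC]
    norm_num
  have s2 : ∑ x ∈ Cᶜ, f x ^ 2 = 1080 := by
    have e1 : ∀ x, f x ^ 2 = ∑ c ∈ C, ∑ c' ∈ C, ι c x * ι c' x := by
      intro x
      simp only [f]
      rw [sq, Finset.sum_mul_sum]
    simp only [e1]
    rw [Finset.sum_comm]
    have e2 : ∀ c ∈ C, ∑ x ∈ Cᶜ, ∑ c' ∈ C, ι c x * ι c' x = 216 := by
      intro c hc
      rw [Finset.sum_comm]
      have e3 : ∀ c' ∈ C, ∑ x ∈ Cᶜ, ι c x * ι c' x = if c' = c then 108 else 27 := by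
        intro c' hc'
        by_cases hcc : c' = c
        · subst hcc
          rw [if_pos rfl]
          have := card_out h hC hcl hc
          rw [Finset.card_filter] at this
          have e4 : ∀ x ∈ Cᶜ, ι c' x * ι c' x = if Γ.Adj c' x then 1 else 0 := by
            intro x _
            simp only [ι]
            split_ifs <;> norm_num
          rw [Finset.sum_congr rfl e4]
          exact_mod_cast this
        · rw [if_neg hcc]
          have := card_out2 h hC hcl hc hc' (Ne.symm hcc)
          rw [Finset.card_filter] at this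
          have e4 : ∀ x ∈ Cᶜ, ι c x * ι c' x = if (Γ.Adj c x ∧ Γ.Adj c' x) then 1 else 0 := by
            intro x _
            simp only [ι]
            by_cases a1 : Γ.Adj c x <;> by_cases a2 : Γ.Adj c' x <;> simp [a1, a2]
          rw [Finset.sum_congr rfl e4]
          exact_mod_cast this
      rw [Finset.sum_congr rfl e3, Finset.sum_ite, Finset.sum_const, Finset.sum_const, Finset.filter_eq' C c, if_pos hc,
        Finset.filter_ne' C c, Finset.card_singleton, Finset.card_erase_of_mem hc, hC]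
      norm_num
    rw [Finset.sum_congr rfl e2, Finset.sum_const, hC]
    norm_num
  have s3 : ∑ x ∈ Cᶜ, (f x - 2) ^ 2 = 0 := by
    have : ∀ x ∈ Cᶜ, (f x - 2) ^ 2 = f x ^ 2 - 4 * f x + 4 := by
      intro x _
      ring
    rw [Finset.sum_congr rfl this, Finset.sum_add_distrib, Finset.sum_sub_distrib, s2, ← Finset.mul_sum, s1, Finset.sum_const, hcompl]
    norm_num
  have s4 := (Finset.sum_eq_zero_iff_of_nonneg (fun x _ => sq_nonneg (f x - 2))).1 s3 v (Finset.mem_compl.2 hv)
  have s5 : f v = 2 := by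
    have := pow_eq_zero_iff (two_ne_zero) |>.1 s4
    linarith
  rw [hf] at s5
  exact_mod_cast s5

end Cfsg.Agent.Lib.McLRec.Del
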