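import Cfsg.Agent.Lib.McLRec.PPAut

/-!
# Two subgroups of small index in the automorphism group coincide
-/

set_option autoImplicit false
set_option maxRecDepth 100000
set_option linter.unusedSectionVars false
set_option linter.unusedVariables false
set_option linter.style.longLine false

namespace Cfsg.Agent.Lib.McLRec.Fin

open Cfsg Cfsg.Agent.Lib.McLRec.Aut Cfsg.Agent.Lib.McLRec.PPAut Cfsg.Agent.Lib.LeechP.McL

theorem eq_of_simple {T : Type*} [Group T] [Finite T] {A R P : Subgroup T} (hR : R ≤ A) (hP : P ≤ A) {M : ℕ}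
    (hA : Nat.card A ≤ 2 * M) (hRc : Nat.card R = M) (hPc : Nat.card P = M) (hM : 2 < M) [IsSimpleGroup P] : R = P := by
  let R' : Subgroup A := R.subgroupOf A
  have hR'c : Nat.card R' = M := by
    rw [Nat.card_congr (Subgroup.subgroupOfEquivOfLe hR).toEquiv, hRc]
  have hidx : R'.index * M = Nat.card A := by
    rw [← hR'c, mul_comm]
    exact Subgroup.card_mul_index R'
  have hle : R'.index ≤ 2 := by
    have : R'.index * M ≤ 2 * M := by rw [hidx]; exact hA
    exact Nat.le_of_mul_le_mul_right this (by omega)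
  have hne : R'.index ≠ 0 := Subgroup.index_ne_zero_of_finite
  have hnormal : R'.Normal := by
    have : R'.index = 1 ∨ R'.index = 2 := by omega
    rcases this with h | h
    · rw [Subgroup.index_eq_one] at h
      rw [h]
      infer_instance
    · exact Subgroup.normal_of_index_eq_two h
  let N : Subgroup P := R.subgroupOf P
  have hN : N.Normal := by
    constructor
    intro n hn p
    have h1 : (⟨n.1, hP n.2⟩ : A) ∈ R' := hn
    have h2 := hnormal.conj_mem _ h1 ⟨p.1, hP p.2⟩
    exact h2
  rcases hN.eq_bot_or_eq_top with h | h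
  · exfalso
    have hinj : Function.Injective (fun p : P => (QuotientGroup.mk (⟨p.1, hP p.2⟩ : A) : A ⧸ R')) := by
      intro x y hxy
      have h1 := QuotientGroup.eq.1 hxy
      have h2 : x⁻¹ * y ∈ N := h1
      rw [h, Subgroup.mem_bot] at h2
      exact (inv_mul_eq_one.1 h2)
    have h3 := Nat.card_le_card_of_injective _ hinj
    rw [hPc] at h3
    have h4 : Nat.card (A ⧸ R') = R'.index := rfl
    omega
  · have hPR : P ≤ R := by
      intro p hp
      have : (⟨p, hp⟩ : P) ∈ N := by
        rw [h]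
        trivial
      exact this
    exact (Subgroup.eq_of_le_of_card_ge hPR (by rw [hRc, hPc])).symm

/-- The final step. -/
theorem final {Ω : Type*} [Fintype Ω] [DecidableEq Ω] (G : Subgroup (Equiv.Perm Ω)) (Γ : SimpleGraph Ω) (E : Fin 275 ≃ Ω)
    (hE : ∀ u v : Fin 275, Γ.Adj (E u) (E v) ↔ A0 u.1 v.1 = true)
    (hG : ∀ g ∈ G, ∀ x y, Γ.Adj (g x) (g y) ↔ Γ.Adj x y) (hcard : Nat.card G = 898128000) :
    Cfsg.Spor.IsoMcL G := by
  let f : Equiv.Perm Ω ≃* Equiv.Perm (Fin 275) := Equiv.permCongrHom E.symm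
  let R : Subgroup (Equiv.Perm (Fin 275)) := G.map f.toMonoidHom
  have hf : ∀ g x, E (f g x) = g (E x) := by
    intro g x
    show E (E.symm (g (E x))) = _
    simp
  have hRA : R ≤ AutA := by
    rintro _ ⟨g, hg, rfl⟩ x y
    rw [Bool.eq_iff_iff, ← hE, ← hE]
    show Γ.Adj (E (f g x)) (E (f g y)) ↔ _
    rw [hf, hf]
    exact hG g hg _ _
  have hRc : Nat.card R = 898128000 := by
    rw [← hcard]
    exact (Nat.card_congr (f.subgroupMap G).toEquiv).symm
  haveI := simple_PP
  have heq : R = PP := eq_of_simple hRA PP_le_AutA (M := 898128000) (card_AutA_le.trans (by norm_num)) hRc card_PP (by norm_num)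
  obtain ⟨e⟩ := iso_PP
  have e1 : G ≃* R := f.subgroupMap G
  rw [heq] at e1
  exact ⟨e1.trans e.symm⟩

end Cfsg.Agent.Lib.McLRec.Fin
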