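import Cfsg.Agent.Lib.McLRec.Tab
import Cfsg.Agent.Lib.McLRec.Del

/-!
# From the first neighbourhood to the whole graph
-/

set_option autoImplicit false
set_option maxRecDepth 100000
set_option linter.unusedSectionVars false
set_option linter.unusedVariables false
set_option linter.style.longLine false

namespace Cfsg.Agent.Lib.McLRec.Gr

open Cfsg.Agent.Lib.PermComp.Core Cfsg.Agent.Lib.McLRec.GData Cfsg.Agent.Lib.McLRec.Aut
  Cfsg.Agent.Lib.McLRec.Hemi Cfsg.Agent.Lib.McLRec.LData Cfsg.Agent.Lib.McLRec.Pz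
  Cfsg.Agent.Lib.McLRec.Tab Cfsg.Agent.Lib.McLRec.Del
open Cfsg.Agent.Lib.Golay.Core (allUpTo allUpTo_iff)

variable {Ω : Type*} [Fintype Ω] [DecidableEq Ω] {Γ : SimpleGraph Ω} [DecidableRel Γ.Adj]

/-- The hypotheses on the first neighbourhood. -/
structure First (Γ : SimpleGraph Ω) [DecidableRel Γ.Adj] (a : Ω) (δ : Fin 112 → Ω) : Prop where
  srg : Γ.IsSRGWith 275 112 30 56
  inj : Function.Injective δ
  nb : ∀ x, Γ.Adj a x ↔ ∃ j, x = δ j
  col : ∀ j k, Γ.Adj (δ j) (δ k) ↔ col j.1 k.1 = true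

variable {a : Ω} {δ : Fin 112 → Ω}

/-- Non-neighbours of `a` give hemisystems. -/
theorem hemi (F : First Γ a δ) {x : Ω} (hxa : x ≠ a) (hn : ¬ Γ.Adj a x) :
    ∃ s < 648, ∀ j : Fin 112, Γ.Adj x (δ j) ↔ bit (sol s) j.1 = true := by
  classical
  let B : ℕ → Bool := fun j => if h : j < 112 then decide (Γ.Adj x (δ ⟨j, h⟩)) else false
  have hB : IsHemi B := by
    intro l hl
    let q : Fin 4 → Fin 112 := fun t => ⟨gl l t.1, chk_gl l hl t.1 t.2⟩
    have hadj : ∀ s t : Fin 4, s ≠ t → Γ.Adj (δ (q s)) (δ (q t)) := by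
      intro s t hst
      rw [F.col]
      have h1 := allUpTo_iff.1 (allUpTo_iff.1 (allUpTo_iff.1 chk_cl l hl) s.1 s.2) t.1 t.2
      rw [Bool.or_eq_true] at h1
      rcases h1 with h1 | h1
      · exact absurd (Fin.ext (Nat.eq_of_beq_eq_true h1)) hst
      · exact h1
    have hqinj : Function.Injective (fun t => δ (q t)) := by
      intro s t hst
      by_contra hne
      have := hadj s t hne
      simp only at hst
      rw [hst] at this
      exact Γ.loopless.irrefl _ this
    have hane : ∀ t, a ≠ δ (q t) := by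
      intro t
      have h1 : Γ.Adj a (δ (q t)) := (F.nb _).2 ⟨_, rfl⟩
      exact h1.ne
    let S : Finset Ω := Finset.univ.image (fun t => δ (q t))
    have hS : S.card = 4 := by
      rw [Finset.card_image_of_injective _ hqinj]
      rfl
    have haS : a ∉ S := by
      intro h
      obtain ⟨t, _, ht⟩ := Finset.mem_image.1 h
      exact hane t ht.symm
    let C : Finset Ω := insert a S
    have hC : C.card = 5 := by
      rw [Finset.card_insert_of_notMem haS, hS]
    have hcl : ∀ c ∈ C, ∀ c' ∈ C, c ≠ c' → Γ.Adj c c' := by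
      intro c hc c' hc' hne
      rcases Finset.mem_insert.1 hc with rfl | hc
      · rcases Finset.mem_insert.1 hc' with rfl | hc'
        · exact absurd rfl hne
        · obtain ⟨t, _, rfl⟩ := Finset.mem_image.1 hc'
          exact (F.nb _).2 ⟨_, rfl⟩
      · obtain ⟨s, _, rfl⟩ := Finset.mem_image.1 hc
        rcases Finset.mem_insert.1 hc' with rfl | hc'
        · exact ((F.nb _).2 ⟨_, rfl⟩ : Γ.Adj c' (δ (q s))).symm
        · obtain ⟨t, _, rfl⟩ := Finset.mem_image.1 hc'
          apply hadj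
          rintro rfl
          exact hne rfl
    have hxC : x ∉ C := by
      intro h
      rcases Finset.mem_insert.1 h with h | h
      · exact hxa h
      · obtain ⟨t, _, rfl⟩ := Finset.mem_image.1 h
        exact hn ((F.nb _).2 ⟨_, rfl⟩)
    have hd := delsarte F.srg hC hcl hxC
    have h1 : (C.filter fun c => Γ.Adj c x) = S.filter fun c => Γ.Adj c x := by
      rw [Finset.filter_insert, if_neg hn]
    rw [h1] at hd
    have h2 : (S.filter fun c => Γ.Adj c x).card = (Finset.univ.filter fun t : Fin 4 => Γ.Adj (δ (q t)) x).card := by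
      rw [Finset.filter_image, Finset.card_image_of_injective _ hqinj]
    rw [h2, Finset.card_filter, Fin.sum_univ_four] at hd
    have hB' : ∀ t : Fin 4, B (gl l t.1) = decide (Γ.Adj x (δ (q t))) := by
      intro t
      simp only [B]
      rw [dif_pos (chk_gl l hl t.1 t.2)]
    have e0 := hB' 0
    have e1 := hB' 1
    have e2 := hB' 2
    have e3 := hB' 3
    simp only [Fin.val_zero, Fin.val_one, Fin.val_two] at e0 e1 e2
    have e3' : B (gl l 3) = decide (Γ.Adj x (δ (q 3))) := e3
    rw [e0, e1, e2, e3']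
    unfold twoOf
    have hsym : ∀ t : Fin 4, (if Γ.Adj (δ (q t)) x then 1 else 0) = cond (decide (Γ.Adj x (δ (q t)))) 1 0 := by
      intro t
      by_cases h : Γ.Adj x (δ (q t))
      · simp [h, h.symm]
      · have h' : ¬ Γ.Adj (δ (q t)) x := fun h3 => h h3.symm
        simp [h, h']
    rw [hsym, hsym, hsym, hsym] at hd
    rw [hd]
    rfl
  obtain ⟨s, hs, hb⟩ := hemi_class B hB
  refine ⟨s, hs, fun j => ?_⟩
  have h1 := hb j.1 j.2
  simp only [B] at h1
  rw [dif_pos j.2] at h1
  rw [← h1]
  simp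

/-- The parts of the vertices. -/
abbrev Z : Type := Unit ⊕ (Fin 112 ⊕ Fin 162)

theorem Dn_lt {j : ℕ} (hj : j < 112) : Dn j < 275 := by
  have h := allUpTo_iff.1 chk_D j hj
  rw [ifB_eq_true] at h
  exact Nat.le_of_ble_eq_true h.1

theorem Sn_lt {y : ℕ} (hy : y < 162) : Sn y < 275 := by
  have h := allUpTo_iff.1 chk_S y hy
  rw [ifB_eq_true] at h
  exact Nat.le_of_ble_eq_true h.1

theorem A0_D {j : ℕ} (hj : j < 112) : A0 0 (Dn j) = true := by
  have h := allUpTo_iff.1 chk_D j hj
  rw [ifB_eq_true] at h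
  exact h.2

theorem A0_S {y : ℕ} (hy : y < 162) : A0 0 (Sn y) = false := by
  have h := allUpTo_iff.1 chk_S y hy
  rw [ifB_eq_true] at h
  simpa using h.2

theorem A0_symm {i j : ℕ} (hi : i < 275) (hj : j < 275) : A0 i j = A0 j i := by
  have h := (iffB_eq_true _ _).1 (allUpTo_iff.1 (allUpTo_iff.1 chk_symm i hi) j hj)
  exact Bool.eq_iff_iff.2 h

theorem A0_loop {i : ℕ} (hi : i < 275) : A0 i i = false := by
  have h := allUpTo_iff.1 chk_loop i hi
  simpa using h

/-- The numbering of the vertices. -/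
def num : Z → Fin 275
  | Sum.inl _ => 0
  | Sum.inr (Sum.inl j) => ⟨Dn j.1, Dn_lt j.2⟩
  | Sum.inr (Sum.inr y) => ⟨Sn y.1, Sn_lt y.2⟩

theorem num_inj : Function.Injective num := by
  have hD : ∀ j : Fin 112, Dn j.1 ≠ 0 := by
    intro j h
    have h1 := A0_D j.2
    rw [h, chk_00] at h1
    exact absurd h1 (by simp)
  have hS : ∀ y : Fin 162, Sn y.1 ≠ 0 := by
    intro y h
    have h0 := A0_S y.2
    have : Sn y.1 = 0 := h
    have h1 := allUpTo_iff.1 chk_S y.1 y.2
    -- the zero vertex is not excluded by the adjacency; use the table directly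
    exact absurd this (by
      have hc : allUpTo (fun y => !(Nat.beq (Sn y) 0)) 162 = true := by decide +kernel
      have := allUpTo_iff.1 hc y.1 y.2
      intro h2
      rw [h2] at this
      exact absurd this (by simp))
  have hDS : ∀ (j : Fin 112) (y : Fin 162), Dn j.1 ≠ Sn y.1 := by
    intro j y h
    have h1 := A0_D j.2
    rw [h, A0_S y.2] at h1
    exact absurd h1 (by simp)
  have hDi : ∀ j k : Fin 112, Dn j.1 = Dn k.1 → j = k := by
    intro j k h
    have h1 := allUpTo_iff.1 (allUpTo_iff.1 chk_Dinj j.1 j.2) k.1 k.2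
    rw [Bool.or_eq_true] at h1
    rcases h1 with h1 | h1
    · exact Fin.ext (Nat.eq_of_beq_eq_true h1)
    · rw [h] at h1
      simp at h1
  have hSi : ∀ j k : Fin 162, Sn j.1 = Sn k.1 → j = k := by
    intro j k h
    have h1 := allUpTo_iff.1 (allUpTo_iff.1 chk_Sinj j.1 j.2) k.1 k.2
    rw [Bool.or_eq_true] at h1
    rcases h1 with h1 | h1
    · exact Fin.ext (Nat.eq_of_beq_eq_true h1)
    · rw [h] at h1
      simp at h1
  rintro (⟨⟩ | j | y) (⟨⟩ | k | z) h
  · rfl
  · exact absurd (congrArg Fin.val h).symm (hD k)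
  · exact absurd (congrArg Fin.val h).symm (hS z)
  · exact absurd (congrArg Fin.val h) (hD j)
  · have := hDi j k (congrArg Fin.val h)
    rw [this]
  · exact absurd (congrArg Fin.val h) (hDS j z)
  · exact absurd (congrArg Fin.val h) (hS y)
  · exact absurd (congrArg Fin.val h).symm (hDS k y)
  · have := hSi y z (congrArg Fin.val h)
    rw [this]

theorem card_Z : Fintype.card Z = 275 := by
  simp [Z]

theorem num_bij : Function.Bijective num :=
  (Fintype.bijective_iff_injective_and_card num).2 ⟨num_inj, by rw [card_Z]; simp⟩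

/-- A valid code of `TAU`. -/
theorem chk_tau_valid : allL (Cfsg.Agent.Lib.PermComp.Simple.validB 112 7 127 CData.PZ_idc) TAU = true := by decide +kernel

end Cfsg.Agent.Lib.McLRec.Gr
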