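import Cfsg.Agent.Lib.McLRec.Gr

/-!
# The isomorphism with the explicit graph
-/

set_option autoImplicit false
set_option maxRecDepth 100000
set_option linter.unusedSectionVars false
set_option linter.unusedVariables false
set_option linter.style.longLine false

namespace Cfsg.Agent.Lib.McLRec.Gr

open Cfsg.Agent.Lib.PermComp.Core Cfsg.Agent.Lib.McLRec.GData Cfsg.Agent.Lib.McLRec.Aut
  Cfsg.Agent.Lib.McLRec.Hemi Cfsg.Agent.Lib.McLRec.LData Cfsg.Agent.Lib.McLRec.Pz
  Cfsg.Agent.Lib.McLRec.Tab Cfsg.Agent.Lib.McLRec.Del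
open Cfsg.Agent.Lib.Golay.Core (allUpTo allUpTo_iff)

variable {Ω : Type*} [Fintype Ω] [DecidableEq Ω] {Γ : SimpleGraph Ω} [DecidableRel Γ.Adj]
variable {a : Ω} {δ : Fin 112 → Ω}

/-- The hypotheses on the second neighbourhood. -/
structure Second (Γ : SimpleGraph Ω) [DecidableRel Γ.Adj] (a : Ω) (δ : Fin 112 → Ω) (i : ℕ) (σ : Fin 162 → Ω) : Prop where
  hi : i < 4
  inj : Function.Injective σ
  ne : ∀ y, σ y ≠ a
  nadj : ∀ y, ¬ Γ.Adj a (σ y)
  bits : ∀ (y : Fin 162) (j : Fin 112), Γ.Adj (σ y) (δ j) ↔ bit (sol (162 * i + y.1)) j.1 = true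

theorem len_TAU : TAU.length = 4 := by decide +kernel

theorem exists_iso (hΩ : Fintype.card Ω = 275) (F : First Γ a δ) {i : ℕ} {σ : Fin 162 → Ω} (S : Second Γ a δ i σ) :
    ∃ E : Fin 275 ≃ Ω, ∀ u v : Fin 275, Γ.Adj (E u) (E v) ↔ A0 u.1 v.1 = true := by
  classical
  have hcm : nthN TAU i ∈ TAU := nthN_mem _ _ (by rw [len_TAU]; exact S.hi)
  obtain ⟨τ, hτ⟩ : ∃ τ, Rp (nthN TAU i) τ := exists_rep ((allL_eq_true _ _).1 chk_tau_valid _ hcm)
  have hτ1 : ∀ j k : Fin 112, col (τ j).1 (τ k).1 = true ↔ col j.1 k.1 = true := by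
    intro j k
    have h1 := (allL_eq_true _ _).1 chk_tau_col _ hcm
    have h2 := (iffB_eq_true _ _).1 (allUpTo_iff.1 (allUpTo_iff.1 h1 j.1 j.2) k.1 k.2)
    rw [rp_apply hτ, rp_apply hτ]
    exact h2
  have hτ2 : ∀ (y : Fin 162) (j : Fin 112), bit (sol (162 * i + y.1)) j.1 = true ↔ A0 (Dn (τ j).1) (Sn y.1) = true := by
    intro y j
    have h1 := allUpTo_iff.1 chk_tau_sol i S.hi
    rw [force_eq] at h1
    have h2 := allUpTo_iff.1 h1 y.1 y.2
    rw [force_eq, force_eq] at h2
    have h3 := (iffB_eq_true _ _).1 (allUpTo_iff.1 h2 j.1 j.2)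
    rw [rp_apply hτ]
    exact h3
  let δ' : Fin 112 → Ω := fun j => δ (τ⁻¹ j)
  have hδ' : Function.Injective δ' := fun j k h => τ⁻¹.injective (F.inj h)
  have a1 : ∀ j k : Fin 112, Γ.Adj (δ' j) (δ' k) ↔ A0 (Dn j.1) (Dn k.1) = true := by
    intro j k
    show Γ.Adj (δ (τ⁻¹ j)) (δ (τ⁻¹ k)) ↔ col j.1 k.1 = true
    rw [F.col, ← hτ1]
    have e1 : τ (τ⁻¹ j) = j := by simp
    have e2 : τ (τ⁻¹ k) = k := by simp
    rw [e1, e2]
  have a2 : ∀ (y : Fin 162) (j : Fin 112), Γ.Adj (σ y) (δ' j) ↔ A0 (Dn j.1) (Sn y.1) = true := by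
    intro y j
    show Γ.Adj (σ y) (δ (τ⁻¹ j)) ↔ _
    rw [S.bits, hτ2]
    have e1 : τ (τ⁻¹ j) = j := by simp
    rw [e1]
  have hma : ∀ j, Γ.Adj a (δ' j) := fun j => (F.nb _).2 ⟨_, rfl⟩
  -- the vertices
  let ι : Z → Ω := Sum.elim (fun _ => a) (Sum.elim δ' σ)
  have ιinj : Function.Injective ι := by
    rintro (⟨⟩ | j | y) (⟨⟩ | k | z) h
    · rfl
    · exact absurd (show a = δ' k from h) (hma k).ne
    · exact absurd (show a = σ z from h).symm (S.ne z)
    · exact absurd (show δ' j = a from h).symm (hma j).ne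
    · rw [hδ' (show δ' j = δ' k from h)]
    · exfalso
      have : δ' j = σ z := h
      exact S.nadj z (this ▸ hma j)
    · exact absurd (show σ y = a from h) (S.ne y)
    · exfalso
      have : δ' k = σ y := (show σ y = δ' k from h).symm
      exact S.nadj y (this ▸ hma k)
    · rw [S.inj (show σ y = σ z from h)]
  have ιbij : Function.Bijective ι :=
    (Fintype.bijective_iff_injective_and_card ι).2 ⟨ιinj, by rw [card_Z, hΩ]⟩
  -- the adjacency on the second part
  have a3f : ∀ y z : Fin 162, Γ.Adj (σ y) (σ z) → A0 (Sn y.1) (Sn z.1) = true := by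
    intro y z hadj
    have hne : y ≠ z := by
      rintro rfl
      exact Γ.loopless.irrefl _ hadj
    have h1 := allUpTo_iff.1 (allUpTo_iff.1 chk_inter y.1 y.2) z.1 z.2
    rw [Bool.or_eq_true, Bool.or_eq_true] at h1
    rcases h1 with (h1 | h1) | h1
    · exact absurd (Fin.ext (Nat.eq_of_beq_eq_true h1)) hne
    · exact h1
    · exfalso
      have h2 : 31 ≤ inter y.1 z.1 := Nat.le_of_ble_eq_true h1
      unfold inter at h2
      rw [force_eq, force_eq, cntB_eq] at h2
      have h3 := card_common F.srg hadj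
      have h4 : (Finset.univ.filter fun j : Fin 112 => (force (Dn j.1) fun d => ifB (A0 d (Sn y.1)) (A0 d (Sn z.1))) = true).card ≤
          (Finset.univ.filter fun x => Γ.Adj (σ y) x ∧ Γ.Adj (σ z) x).card := by
        apply Finset.card_le_card_of_injOn δ'
        · intro j hj
          simp only [Finset.coe_filter, Finset.mem_univ, true_and, Set.mem_ofPred_eq, force_eq, ifB_eq_true] at hj ⊢
          exact ⟨(a2 y j).2 hj.1, (a2 z j).2 hj.2⟩
        · intro j _ k _ h
          exact hδ' h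
      omega
  have a3b : ∀ y z : Fin 162, A0 (Sn y.1) (Sn z.1) = true → Γ.Adj (σ y) (σ z) := by
    intro y z hz
    -- counting neighbours
    have hdeg : (Γ.neighborFinset (σ y)).card = 112 := F.srg.regular _
    have hN : (Γ.neighborFinset (σ y)).card = (Finset.univ.filter fun w : Z => Γ.Adj (σ y) (ι w)).card := by
      symm
      apply Finset.card_bij (fun w _ => ι w)
      · intro w hw
        simp only [Finset.mem_filter, Finset.mem_univ, true_and] at hw
        simpa using hw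
      · intro w _ w' _ h
        exact ιinj h
      · intro x hx
        obtain ⟨w, rfl⟩ := ιbij.2 x
        refine ⟨w, ?_, rfl⟩
        simpa using hx
    rw [Finset.card_filter, Fintype.sum_sum_type, Fintype.sum_sum_type] at hN
    have h0 : ∑ u : Unit, (if Γ.Adj (σ y) (ι (Sum.inl u)) then 1 else 0) = 0 := by
      apply Finset.sum_eq_zero
      intro u _
      rw [if_neg]
      intro h
      exact S.nadj y h.symm
    have h1 : ∑ j : Fin 112, (if Γ.Adj (σ y) (ι (Sum.inr (Sum.inl j))) then 1 else 0) = 56 := by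
      have h2 := Nat.eq_of_beq_eq_true (by
        have := allUpTo_iff.1 chk_degB y.1 y.2
        rwa [force_eq] at this)
      rw [cntB_eq, Finset.card_filter] at h2
      rw [← h2]
      apply Finset.sum_congr rfl
      intro j _
      have : Γ.Adj (σ y) (ι (Sum.inr (Sum.inl j))) ↔ A0 (Dn j.1) (Sn y.1) = true := a2 y j
      simp only [this]
    rw [h0, h1, hdeg] at hN
    have hS56 : (Finset.univ.filter fun y' : Fin 162 => Γ.Adj (σ y) (σ y')).card = 56 := by
      have h5 : ∑ y' : Fin 162, (if Γ.Adj (σ y) (ι (Sum.inr (Sum.inr y'))) then 1 else 0) =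
          (Finset.univ.filter fun y' : Fin 162 => Γ.Adj (σ y) (σ y')).card := by
        rw [Finset.card_filter]
        rfl
      rw [h5] at hN
      omega
    have hT56 : (Finset.univ.filter fun y' : Fin 162 => A0 (Sn y.1) (Sn y'.1) = true).card = 56 := by
      have h2 := Nat.eq_of_beq_eq_true (by
        have := allUpTo_iff.1 chk_deg y.1 y.2
        rwa [force_eq] at this)
      rw [cntB_eq] at h2
      exact h2
    have hsub : (Finset.univ.filter fun y' : Fin 162 => Γ.Adj (σ y) (σ y')) ⊆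
        (Finset.univ.filter fun y' : Fin 162 => A0 (Sn y.1) (Sn y'.1) = true) := by
      intro y' hy'
      simp only [Finset.mem_filter, Finset.mem_univ, true_and] at hy' ⊢
      exact a3f y y' hy'
    have heq := Finset.eq_of_subset_of_card_le hsub (by rw [hS56, hT56])
    have hmem : z ∈ (Finset.univ.filter fun y' : Fin 162 => A0 (Sn y.1) (Sn y'.1) = true) := by
      simp only [Finset.mem_filter, Finset.mem_univ, true_and]
      exact hz
    rw [← heq] at hmem
    simpa using hmem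
  -- all adjacencies
  have hZ : ∀ w w' : Z, Γ.Adj (ι w) (ι w') ↔ A0 (num w).1 (num w').1 = true := by
    have hsymm : ∀ w w' : Z, (Γ.Adj (ι w) (ι w') ↔ A0 (num w).1 (num w').1 = true) →
        (Γ.Adj (ι w') (ι w) ↔ A0 (num w').1 (num w).1 = true) := by
      intro w w' h
      rw [A0_symm (num w').2 (num w).2, ← h]
      exact ⟨fun h => h.symm, fun h => h.symm⟩
    have h00 : Γ.Adj a a ↔ A0 0 0 = true := by
      rw [chk_00]
      simp
    have h0D : ∀ j : Fin 112, Γ.Adj a (δ' j) ↔ A0 0 (Dn j.1) = true := by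
      intro j
      rw [A0_D j.2]
      simpa using hma j
    have h0S : ∀ y : Fin 162, Γ.Adj a (σ y) ↔ A0 0 (Sn y.1) = true := by
      intro y
      rw [A0_S y.2]
      simpa using S.nadj y
    have hDS : ∀ (j : Fin 112) (y : Fin 162), Γ.Adj (δ' j) (σ y) ↔ A0 (Dn j.1) (Sn y.1) = true := by
      intro j y
      rw [← a2 y j]
      exact ⟨fun h => h.symm, fun h => h.symm⟩
    rintro (⟨⟩ | j | y) (⟨⟩ | k | z)
    · exact h00
    · exact h0D k
    · exact h0S z
    · exact hsymm (Sum.inl ()) (Sum.inr (Sum.inl j)) (h0D j)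
    · exact a1 j k
    · exact hDS j z
    · exact hsymm (Sum.inl ()) (Sum.inr (Sum.inr y)) (h0S y)
    · exact hsymm (Sum.inr (Sum.inl k)) (Sum.inr (Sum.inr y)) (hDS k y)
    · exact ⟨a3f y z, a3b y z⟩
  let E : Fin 275 ≃ Ω := (Equiv.ofBijective num num_bij).symm.trans (Equiv.ofBijective ι ιbij)
  refine ⟨E, fun u v => ?_⟩
  obtain ⟨w, rfl⟩ := num_bij.2 u
  obtain ⟨w', rfl⟩ := num_bij.2 v
  have e1 : ∀ w, E (num w) = ι w := by
    intro w
    show (Equiv.ofBijective ι ιbij) ((Equiv.ofBijective num num_bij).symm (num w)) = ι w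
    have : (Equiv.ofBijective num num_bij).symm (num w) = w := Equiv.ofBijective_symm_apply_apply num num_bij w
    rw [this]
    rfl
  rw [e1, e1]
  exact hZ w w'

end Cfsg.Agent.Lib.McLRec.Gr
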