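import Cfsg.Agent.Lib.McLRec.GData
import Cfsg.Agent.Lib.PermComp.Core

/-!
# The hemisystems of the generalized quadrangle
-/

set_option autoImplicit false
set_option maxRecDepth 100000
set_option linter.unusedSectionVars false
set_option linter.unusedVariables false
set_option linter.style.longLine false

namespace Cfsg.Agent.Lib.McLRec.Hemi

open Cfsg.Agent.Lib.PermComp.Core Cfsg.Agent.Lib.McLRec.GData

/-- A point of a clique. -/
def gl (l t : ℕ) : ℕ := Nat.land (Nat.shiftRight GQL (7 * (4 * l + t))) 127

/-- A hemisystem of the table. -/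
def sol (s : ℕ) : ℕ := Nat.land (Nat.shiftRight SOLS (112 * s)) 5192296858534827628530496329220095

/-- A token. -/
def tok (k : ℕ) : ℕ := Nat.land (Nat.shiftRight TK (12 * k)) 4095

/-- Exactly two of four. -/
def twoOf (a b c d : Bool) : Bool :=
  Nat.beq (cond a 1 0 + cond b 1 0 + cond c 1 0 + cond d 1 0) 2

/-- The number of points of a clique in a mask. -/
def cnt4 (m l : ℕ) : ℕ :=
  cond (bit m (gl l 0)) 1 0 + cond (bit m (gl l 1)) 1 0 + cond (bit m (gl l 2)) 1 0 + cond (bit m (gl l 3)) 1 0

/-- Adding to `m` a point outside `o`. -/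
def upd (m o p : ℕ) : ℕ := cond (bit o p) m (setBit m p)

/-- Adding to `m` the points of a clique outside `o`. -/
def updL (m o l : ℕ) : ℕ := upd (upd (upd (upd m o (gl l 0)) o (gl l 1)) o (gl l 2)) o (gl l 3)

/-- One step of the machine. -/
noncomputable def step (t m1 m0 : ℕ) (rest : List (ℕ × ℕ)) (k : List (ℕ × ℕ) → Bool) : Bool :=
  Bool.rec
    (Bool.rec
      -- a clique
      (ifB (Nat.blt t 280) <| force (cnt4 m1 t) fun a => force (cnt4 m0 t) fun b =>
        Bool.rec
          (Bool.rec
            (Bool.rec false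
              (force (updL m1 m0 t) fun m => k ((m, m0) :: rest))
              (Nat.beq b 2))
            (force (updL m0 m1 t) fun m => k ((m1, m) :: rest))
            (Nat.beq a 2))
          (k rest)
          (Nat.ble 3 a || Nat.ble 3 b))
      -- a branch
      (force (setBit m1 (t - 1000)) fun x => force (setBit m0 (t - 1000)) fun y =>
        k ((x, m0) :: (m1, y) :: rest))
      (Nat.ble 1000 t))
    -- a leaf
    (ifB (Nat.ble (t - 2000 + 1) 648) <|
      force (sol (t - 2000)) fun s =>
      ifB (Nat.beq m1 s) <| ifB (Nat.beq (Nat.lor m1 m0) 5192296858534827628530496329220095) <|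
      k rest)
    (Nat.ble 2000 t)

/-- The machine. -/
noncomputable def run (n : ℕ) : ℕ → List (ℕ × ℕ) → Bool :=
  Nat.rec (fun _ st => List.rec true (fun _ _ _ => false) st)
    (fun _ ih k st =>
      List.rec false (fun fr rest _ => step (tok k) fr.1 fr.2 rest (ih (Nat.succ k))) st) n

theorem chk_run : run TKn 0 [(0, 0)] = true := by decide +kernel

theorem chk_gl : ∀ l < 280, ∀ t < 4, gl l t < 112 := by decide +kernel

/-! ### Soundness -/

/-- A hemisystem. -/
def IsHemi (B : ℕ → Bool) : Prop :=
  ∀ l < 280, twoOf (B (gl l 0)) (B (gl l 1)) (B (gl l 2)) (B (gl l 3)) = true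

/-- Consistency with a frame. -/
def Cons (B : ℕ → Bool) (m1 m0 : ℕ) : Prop :=
  ∀ j < 112, (bit m1 j = true → B j = true) ∧ (bit m0 j = true → B j = false)

/-- A frame all of whose hemisystems are listed. -/
def Good (fr : ℕ × ℕ) : Prop :=
  ∀ B, IsHemi B → Cons B fr.1 fr.2 → ∃ s < 648, ∀ j < 112, B j = bit (sol s) j

theorem bit_upd (m o p j : ℕ) : bit (upd m o p) j = true ↔ bit m j = true ∨ (j = p ∧ bit o p = false) := by
  unfold upd
  cases h : bit o p with
  | true => simp
  | false =>
    simp only [cond_false]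
    rw [bit_setBit]
    simp

theorem bit_updL (m o l j : ℕ) : bit (updL m o l) j = true ↔ bit m j = true ∨
    (j = gl l 0 ∧ bit o (gl l 0) = false) ∨ (j = gl l 1 ∧ bit o (gl l 1) = false) ∨
    (j = gl l 2 ∧ bit o (gl l 2) = false) ∨ (j = gl l 3 ∧ bit o (gl l 3) = false) := by
  unfold updL
  simp only [bit_upd]
  tauto

theorem bool_three1 : ∀ x0 x1 x2 x3 y0 y1 y2 y3 : Bool, (x0 = true → y0 = true) → (x1 = true → y1 = true) →
    (x2 = true → y2 = true) → (x3 = true → y3 = true) →
    Nat.ble 3 (cond x0 1 0 + cond x1 1 0 + cond x2 1 0 + cond x3 1 0) = true → twoOf y0 y1 y2 y3 = true → False := by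
  intro x0 x1 x2 x3 y0 y1 y2 y3
  cases x0 <;> cases x1 <;> cases x2 <;> cases x3 <;> cases y0 <;> cases y1 <;> cases y2 <;> cases y3 <;> decide

theorem bool_three0 : ∀ x0 x1 x2 x3 y0 y1 y2 y3 : Bool, (x0 = true → y0 = false) → (x1 = true → y1 = false) →
    (x2 = true → y2 = false) → (x3 = true → y3 = false) →
    Nat.ble 3 (cond x0 1 0 + cond x1 1 0 + cond x2 1 0 + cond x3 1 0) = true → twoOf y0 y1 y2 y3 = true → False := by
  intro x0 x1 x2 x3 y0 y1 y2 y3
  cases x0 <;> cases x1 <;> cases x2 <;> cases x3 <;> cases y0 <;> cases y1 <;> cases y2 <;> cases y3 <;> decide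

theorem bool_two1 : ∀ x0 x1 x2 x3 y0 y1 y2 y3 : Bool, (x0 = true → y0 = true) → (x1 = true → y1 = true) →
    (x2 = true → y2 = true) → (x3 = true → y3 = true) →
    Nat.beq (cond x0 1 0 + cond x1 1 0 + cond x2 1 0 + cond x3 1 0) 2 = true → twoOf y0 y1 y2 y3 = true →
    (x0 = false → y0 = false) ∧ (x1 = false → y1 = false) ∧ (x2 = false → y2 = false) ∧ (x3 = false → y3 = false) := by
  intro x0 x1 x2 x3 y0 y1 y2 y3
  cases x0 <;> cases x1 <;> cases x2 <;> cases x3 <;> cases y0 <;> cases y1 <;> cases y2 <;> cases y3 <;> decide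

theorem bool_two0 : ∀ x0 x1 x2 x3 y0 y1 y2 y3 : Bool, (x0 = true → y0 = false) → (x1 = true → y1 = false) →
    (x2 = true → y2 = false) → (x3 = true → y3 = false) →
    Nat.beq (cond x0 1 0 + cond x1 1 0 + cond x2 1 0 + cond x3 1 0) 2 = true → twoOf y0 y1 y2 y3 = true →
    (x0 = false → y0 = true) ∧ (x1 = false → y1 = true) ∧ (x2 = false → y2 = true) ∧ (x3 = false → y3 = true) := by
  intro x0 x1 x2 x3 y0 y1 y2 y3
  cases x0 <;> cases x1 <;> cases x2 <;> cases x3 <;> cases y0 <;> cases y1 <;> cases y2 <;> cases y3 <;> decide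

theorem bit_ones {j : ℕ} (hj : j < 112) : bit 5192296858534827628530496329220095 j = true := by
  rw [bit_eq_testBit, show (5192296858534827628530496329220095 : ℕ) = 2 ^ 112 - 1 by norm_num, Nat.testBit_two_pow_sub_one]
  simpa using hj

theorem bit_lor' (a b j : ℕ) : bit (Nat.lor a b) j = true ↔ bit a j = true ∨ bit b j = true := by
  rw [bit_eq_testBit, bit_eq_testBit, bit_eq_testBit]
  show (a ||| b).testBit j = true ↔ _
  rw [Nat.testBit_or, Bool.or_eq_true]

/-- Soundness of one step. -/
theorem step_sound {t m1 m0 : ℕ} {rest : List (ℕ × ℕ)} {k : List (ℕ × ℕ) → Bool}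
    (hk : ∀ st, k st = true → ∀ fr ∈ st, Good fr) (h : step t m1 m0 rest k = true) :
    Good (m1, m0) ∧ ∀ fr ∈ rest, Good fr := by
  unfold step at h
  cases h1 : Nat.ble 2000 t with
  | true =>
    rw [h1] at h
    simp only [ifB_eq_true, force_eq] at h
    obtain ⟨h2, h3, h4, h5⟩ := h
    refine ⟨?_, hk _ h5⟩
    intro B _ hC
    refine ⟨t - 2000, Nat.le_of_ble_eq_true h2, fun j hj => ?_⟩
    have e1 : m1 = sol (t - 2000) := Nat.eq_of_beq_eq_true h3
    have e2 : Nat.lor m1 m0 = 5192296858534827628530496329220095 := Nat.eq_of_beq_eq_true h4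
    rw [← e1]
    have h6 := bit_ones hj
    rw [← e2, bit_lor'] at h6
    cases hb : bit m1 j with
    | true => exact (hC j hj).1 hb
    | false =>
      rcases h6 with h6 | h6
      · rw [hb] at h6
        exact absurd h6 (by simp)
      · exact (hC j hj).2 h6
  | false =>
    rw [h1] at h
    cases h2 : Nat.ble 1000 t with
    | true =>
      rw [h2] at h
      simp only [force_eq] at h
      have h3 := hk _ h
      have g1 := h3 (setBit m1 (t - 1000), m0) (by simp)
      have g2 := h3 (m1, setBit m0 (t - 1000)) (by simp)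
      refine ⟨?_, fun fr hfr => h3 fr (by simp [hfr])⟩
      intro B hB hC
      cases hv : B (t - 1000) with
      | true =>
        apply g1 B hB
        intro j hj
        refine ⟨fun hb => ?_, (hC j hj).2⟩
        rw [bit_setBit] at hb
        rcases hb with hb | rfl
        · exact (hC j hj).1 hb
        · exact hv
      | false =>
        apply g2 B hB
        intro j hj
        refine ⟨(hC j hj).1, fun hb => ?_⟩
        rw [bit_setBit] at hb
        rcases hb with hb | rfl
        · exact (hC j hj).2 hb
        · exact hv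
    | false =>
      rw [h2] at h
      simp only [ifB_eq_true, force_eq] at h
      obtain ⟨ht, h⟩ := h
      have ht' : t < 280 := Nat.le_of_ble_eq_true ht
      have hlt : ∀ u < 4, gl t u < 112 := chk_gl t ht'
      have hC1 : ∀ B, Cons B m1 m0 → ∀ u < 4, (bit m1 (gl t u) = true → B (gl t u) = true) ∧ (bit m0 (gl t u) = true → B (gl t u) = false) :=
        fun B hC u hu => hC _ (hlt u hu)
      cases h3 : (Nat.ble 3 (cnt4 m1 t) || Nat.ble 3 (cnt4 m0 t)) with
      | true =>
        rw [h3] at h
        refine ⟨?_, hk _ h⟩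
        intro B hB hC
        exfalso
        have a0 := hC1 B hC 0 (by norm_num)
        have a1 := hC1 B hC 1 (by norm_num)
        have a2 := hC1 B hC 2 (by norm_num)
        have a3 := hC1 B hC 3 (by norm_num)
        rw [Bool.or_eq_true] at h3
        rcases h3 with h4 | h4
        · exact bool_three1 _ _ _ _ _ _ _ _ a0.1 a1.1 a2.1 a3.1 h4 (hB t ht')
        · exact bool_three0 _ _ _ _ _ _ _ _ a0.2 a1.2 a2.2 a3.2 h4 (hB t ht')
      | false =>
        rw [h3] at h
        cases h4 : Nat.beq (cnt4 m1 t) 2 with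
        | true =>
          rw [h4] at h
          have h5 := hk _ h
          refine ⟨?_, fun fr hfr => h5 fr (by simp [hfr])⟩
          intro B hB hC
          apply h5 (m1, updL m0 m1 t) (by simp) B hB
          have a0 := hC1 B hC 0 (by norm_num)
          have a1 := hC1 B hC 1 (by norm_num)
          have a2 := hC1 B hC 2 (by norm_num)
          have a3 := hC1 B hC 3 (by norm_num)
          obtain ⟨b0, b1, b2, b3⟩ := bool_two1 _ _ _ _ _ _ _ _ a0.1 a1.1 a2.1 a3.1 h4 (hB t ht')
          intro j hj
          refine ⟨(hC j hj).1, fun hb => ?_⟩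
          rw [bit_updL] at hb
          rcases hb with hb | ⟨rfl, e⟩ | ⟨rfl, e⟩ | ⟨rfl, e⟩ | ⟨rfl, e⟩
          · exact (hC j hj).2 hb
          · exact b0 e
          · exact b1 e
          · exact b2 e
          · exact b3 e
        | false =>
          rw [h4] at h
          cases h6 : Nat.beq (cnt4 m0 t) 2 with
          | false =>
            rw [h6] at h
            exact absurd h (by simp)
          | true =>
            rw [h6] at h
            have h5 := hk _ h
            refine ⟨?_, fun fr hfr => h5 fr (by simp [hfr])⟩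
            intro B hB hC
            apply h5 (updL m1 m0 t, m0) (by simp) B hB
            have a0 := hC1 B hC 0 (by norm_num)
            have a1 := hC1 B hC 1 (by norm_num)
            have a2 := hC1 B hC 2 (by norm_num)
            have a3 := hC1 B hC 3 (by norm_num)
            obtain ⟨b0, b1, b2, b3⟩ := bool_two0 _ _ _ _ _ _ _ _ a0.2 a1.2 a2.2 a3.2 h6 (hB t ht')
            intro j hj
            refine ⟨fun hb => ?_, (hC j hj).2⟩
            rw [bit_updL] at hb
            rcases hb with hb | ⟨rfl, e⟩ | ⟨rfl, e⟩ | ⟨rfl, e⟩ | ⟨rfl, e⟩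
            · exact (hC j hj).1 hb
            · exact b0 e
            · exact b1 e
            · exact b2 e
            · exact b3 e

theorem run_sound : ∀ (n k : ℕ) (st : List (ℕ × ℕ)), run n k st = true → ∀ fr ∈ st, Good fr := by
  intro n
  induction n with
  | zero =>
    intro k st h fr hfr
    cases st with
    | nil => simp at hfr
    | cons a b => exact absurd h (by simp [run])
  | succ n ih =>
    intro k st h fr hfr
    cases st with
    | nil => simp at hfr
    | cons a b =>
      have h1 : step (tok k) a.1 a.2 b (run n (Nat.succ k)) = true := h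
      have h2 := step_sound (fun st hs => ih _ st hs) h1
      rcases List.mem_cons.1 hfr with rfl | hb
      · exact h2.1
      · exact h2.2 _ hb

/-- **Every hemisystem is listed.** -/
theorem hemi_class (B : ℕ → Bool) (hB : IsHemi B) : ∃ s < 648, ∀ j < 112, B j = bit (sol s) j := by
  apply run_sound _ _ _ chk_run (0, 0) (by simp) B hB
  intro j _
  constructor
  · intro h
    exact absurd h (by simp [bit])
  · intro h
    exact absurd h (by simp [bit])

end Cfsg.Agent.Lib.McLRec.Hemi
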