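import Cfsg.Agent.Lib.McLRec.LData
import Cfsg.Agent.Lib.U43.SevenPSU

/-!
# The action of `SU₄(3)` on its 112 totally isotropic lines

The lines are given by pairs of vectors; every pair of orthogonal isotropic vectors lies on a listed line,
so each element of the group permutes the listed lines.
-/

set_option autoImplicit false
set_option linter.unusedSectionVars false
set_option linter.unusedVariables false
set_option linter.style.longLine false
set_option linter.unnecessarySimpa false
set_option linter.style.haveILetI false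

namespace Cfsg.Agent.Lib.McLRec.Lines

open Cfsg Cfsg.Agent.Lib.Golay.Core Cfsg.Agent.Lib.U43.Seven Cfsg.Agent.Lib.McLRec.LData
open scoped Matrix

/-! ## Codes -/

def uL (j : ℕ) : ℕ := Nat.land (Nat.shiftRight uT (16 * j)) 65535
def vL (j : ℕ) : ℕ := Nat.land (Nat.shiftRight vT (16 * j)) 65535
def rP (p : ℕ) : ℕ := Nat.land (Nat.shiftRight rT (16 * p)) 65535
def ptE (a b c d : ℕ) : ℕ := Nat.land (Nat.shiftRight ptT (13 * (a + 9 * b + 81 * c + 729 * d))) 8191
def pl (p t : ℕ) : ℕ := Nat.land (Nat.shiftRight plT (7 * (4 * p + t))) 127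
def inc (k q : ℕ) : Bool := Nat.beq (Nat.land (Nat.shiftRight IT (k * 280 + q)) 1) 1

/-- The form on codes. -/
def hV (U V : ℕ) : ℕ :=
  addC (addC (addC (mulC (vv U 0) (frobC (vv V 0))) (mulC (vv U 1) (frobC (vv V 1))))
    (mulC (vv U 2) (frobC (vv V 2)))) (mulC (vv U 3) (frobC (vv V 3)))

/-- Scalar multiple of a code. -/
def mulV (s U : ℕ) : ℕ :=
  packV (mulC s (vv U 0)) (mulC s (vv U 1)) (mulC s (vv U 2)) (mulC s (vv U 3))

/-- Linear combination of codes. -/
def lin (a U b V : ℕ) : ℕ :=
  packV (addC (mulC a (vv U 0)) (mulC b (vv V 0))) (addC (mulC a (vv U 1)) (mulC b (vv V 1)))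
    (addC (mulC a (vv U 2)) (mulC b (vv V 2))) (addC (mulC a (vv U 3)) (mulC b (vv V 3)))

/-- Image under a matrix of codes. -/
def mvV (N V : ℕ) : ℕ := packV (mvi N V 0) (mvi N V 1) (mvi N V 2) (mvi N V 3)

/-- Existence below a bound. -/
def anyUpTo (p : ℕ → Bool) (k : ℕ) : Bool :=
  Nat.rec false (fun i ih => cond (p i) true ih) k

theorem anyUpTo_iff {p : ℕ → Bool} {k : ℕ} : anyUpTo p k = true ↔ ∃ i < k, p i = true := by
  induction k with
  | zero => simp [anyUpTo]
  | succ k ih =>
    show cond (p k) true (anyUpTo p k) = true ↔ _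
    cases hp : p k with
    | true =>
      simp only [cond_true, true_iff]
      exact ⟨k, Nat.lt_succ_self _, hp⟩
    | false =>
      simp only [cond_false]
      rw [ih]
      constructor
      · rintro ⟨i, hi, h⟩
        exact ⟨i, by omega, h⟩
      · rintro ⟨i, hi, h⟩
        have : i ≠ k := by
          rintro rfl
          rw [hp] at h
          exact absurd h (by simp)
        exact ⟨i, by omega, h⟩

/-- Membership of a code in the span of a line. -/
def inLB (k x : ℕ) : Bool :=
  anyUpTo (fun a => anyUpTo (fun b => Nat.beq (lin a (uL k) b (vL k)) x) 9) 9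

/-! ## The checks -/

theorem chk_pt : allUpTo (fun a => allUpTo (fun b => allUpTo (fun c => allUpTo (fun d =>
    cond (Nat.beq (hV (packV a b c d) (packV a b c d)) 0)
      (cond (Nat.beq (packV a b c d) 0) true
        (cond (Nat.beq (packV a b c d) (mulV (ptE a b c d / 512) (rP (ptE a b c d % 512))))
          (cond (Nat.blt (ptE a b c d % 512) 280)
            (cond (Nat.blt (ptE a b c d / 512) 9) (Nat.ble 1 (ptE a b c d / 512)) false) false) false))
      true) 9) 9) 9) 9 = true := by decide +kernel

theorem chk_pair : allUpTo (fun p => allUpTo (fun q =>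
    cond (Nat.beq (hV (rP p) (rP q)) 0)
      (anyUpTo (fun t => cond (inc (pl p t) p) (cond (inc (pl p t) q) (Nat.blt (pl p t) 112) false) false) 4) true) 280) 280 = true := by
  decide +kernel

theorem chk_inc : allUpTo (fun k => allUpTo (fun q => cond (inc k q) (inLB k (rP q)) true) 280) 112 = true := by
  decide +kernel

theorem chk_ti : allUpTo (fun j => cond (Nat.beq (hV (uL j) (uL j)) 0)
    (cond (Nat.beq (hV (uL j) (vL j)) 0) (cond (Nat.beq (hV (vL j) (uL j)) 0) (Nat.beq (hV (vL j) (vL j)) 0) false) false) false) 112 = true := by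
  decide +kernel

theorem chk_li : allUpTo (fun j => allUpTo (fun a => allUpTo (fun b =>
    cond (Nat.beq (lin a (uL j) b (vL j)) 0) (cond (Nat.beq a 0) (Nat.beq b 0) false) true) 9) 9) 112 = true := by
  decide +kernel

theorem chk_sep : allUpTo (fun j => allUpTo (fun k => cond (Nat.beq j k) true
    (cond (Nat.beq (hV (uL j) (uL k)) 0) (cond (Nat.beq (hV (uL j) (vL k)) 0)
      (cond (Nat.beq (hV (vL j) (uL k)) 0) (!(Nat.beq (hV (vL j) (vL k)) 0)) true) true) true)) 112) 112 = true := by
  decide +kernel


end Cfsg.Agent.Lib.McLRec.Lines
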