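import Cfsg.Agent.Lib.McLRec.LChk

/-!
# The action of `SU₄(3)` on its 112 totally isotropic lines

The lines are given by pairs of vectors; every pair of orthogonal isotropic vectors lies on a listed line,
so each element of the group permutes the listed lines.
-/

set_option autoImplicit false
set_option linter.unusedSectionVars false
set_option linter.unusedVariables false
set_option linter.style.longLine false
set_option linter.unnecessarySimpa false
set_option linter.style.haveILetI false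

namespace Cfsg.Agent.Lib.McLRec.Lines

open Cfsg Cfsg.Agent.Lib.Golay.Core Cfsg.Agent.Lib.U43.Seven Cfsg.Agent.Lib.McLRec.LData
open scoped Matrix

theorem mulC_lt (x y : ℕ) : mulC x y < 9 := by
  unfold mulC
  have h1 := Nat.mod_lt ((x % 3) * (y % 3) + 2 * ((x / 3) * (y / 3))) (by norm_num : 3 > 0)
  have h2 := Nat.mod_lt ((x % 3) * (y / 3) + (x / 3) * (y % 3)) (by norm_num : 3 > 0)
  omega

theorem vv_packV {a b c d : ℕ} (ha : a < 9) (hb : b < 9) (hc : c < 9) (hd : d < 9) :
    vv (packV a b c d) 0 = a ∧ vv (packV a b c d) 1 = b ∧ vv (packV a b c d) 2 = c ∧ vv (packV a b c d) 3 = d := by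
  have e1 : ∀ (n j : ℕ), vv n j = n / 2 ^ (4 * j) % 16 := by
    intro n j
    unfold vv
    have := Nat.and_two_pow_sub_one_eq_mod (Nat.shiftRight n (4 * j)) 4
    rw [show (2 ^ 4 - 1 : ℕ) = 15 from rfl] at this
    show (Nat.shiftRight n (4 * j)) &&& 15 = _
    rw [this]
    show (n >>> (4 * j)) % 2 ^ 4 = _
    rw [Nat.shiftRight_eq_div_pow]
  rw [e1, e1, e1, e1]
  unfold packV
  norm_num
  omega

section K

variable {K : Type*} [Field K] {i : K} (hi : i * i = -1) (h3 : (3 : K) = 0)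
include hi h3

theorem toV_packV {a b c d : ℕ} (ha : a < 9) (hb : b < 9) (hc : c < 9) (hd : d < 9) :
    toV i (packV a b c d) = ![φ i a, φ i b, φ i c, φ i d] := by
  obtain ⟨k0, k1, k2, k3⟩ := vv_packV ha hb hc hd
  funext t
  show φ i (vv (packV a b c d) t.1) = _
  fin_cases t
  · show φ i (vv (packV a b c d) 0) = φ i a
    rw [k0]
  · show φ i (vv (packV a b c d) 1) = φ i b
    rw [k1]
  · show φ i (vv (packV a b c d) 2) = φ i c
    rw [k2]
  · show φ i (vv (packV a b c d) 3) = φ i d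
    rw [k3]

omit hi h3 in
theorem toV_apply (V : ℕ) (t : Fin 4) : toV i V t = φ i (vv V t.1) := rfl

theorem toV_mulV (s U : ℕ) : toV i (mulV s U) = φ i s • toV i U := by
  unfold mulV
  rw [toV_packV hi h3 (mulC_lt _ _) (mulC_lt _ _) (mulC_lt _ _) (mulC_lt _ _)]
  funext t
  fin_cases t
  · show φ i (mulC s (vv U 0)) = φ i s * φ i (vv U 0)
    rw [φ_mul hi h3]
  · show φ i (mulC s (vv U 1)) = φ i s * φ i (vv U 1)
    rw [φ_mul hi h3]
  · show φ i (mulC s (vv U 2)) = φ i s * φ i (vv U 2)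
    rw [φ_mul hi h3]
  · show φ i (mulC s (vv U 3)) = φ i s * φ i (vv U 3)
    rw [φ_mul hi h3]

theorem toV_lin (a U b V : ℕ) : toV i (lin a U b V) = φ i a • toV i U + φ i b • toV i V := by
  unfold lin
  rw [toV_packV hi h3 (addC_lt _ _) (addC_lt _ _) (addC_lt _ _) (addC_lt _ _)]
  funext t
  fin_cases t
  · show φ i (addC (mulC a (vv U 0)) (mulC b (vv V 0))) = φ i a * φ i (vv U 0) + φ i b * φ i (vv V 0)
    rw [φ_add hi h3, φ_mul hi h3, φ_mul hi h3]
  · show φ i (addC (mulC a (vv U 1)) (mulC b (vv V 1))) = φ i a * φ i (vv U 1) + φ i b * φ i (vv V 1)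
    rw [φ_add hi h3, φ_mul hi h3, φ_mul hi h3]
  · show φ i (addC (mulC a (vv U 2)) (mulC b (vv V 2))) = φ i a * φ i (vv U 2) + φ i b * φ i (vv V 2)
    rw [φ_add hi h3, φ_mul hi h3, φ_mul hi h3]
  · show φ i (addC (mulC a (vv U 3)) (mulC b (vv V 3))) = φ i a * φ i (vv U 3) + φ i b * φ i (vv V 3)
    rw [φ_add hi h3, φ_mul hi h3, φ_mul hi h3]

theorem toK_mul_toV (N V : ℕ) : toK i N *ᵥ toV i V = toV i (mvV N V) := by
  unfold mvV
  have hlt : ∀ t, mvi N V t < 9 := fun t => addC_lt _ _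
  rw [toV_packV hi h3 (hlt _) (hlt _) (hlt _) (hlt _)]
  funext t
  rw [mv_toV hi h3]
  fin_cases t <;> rfl

theorem herm_toV2 (U V : ℕ) : hermForm 4 K 3 (toV i U) (toV i V) = φ i (hV U V) := by
  unfold hermForm hV
  rw [Fin.sum_univ_four]
  simp only [φ_add hi h3, φ_mul hi h3, φ_frob hi h3]
  rfl

omit hi h3 in
theorem herm_add_left (a b : K) (u v w : Fin 4 → K) :
    hermForm 4 K 3 (a • u + b • v) w = a * hermForm 4 K 3 u w + b * hermForm 4 K 3 v w := by
  simp only [hermForm, Fin.sum_univ_four, Pi.add_apply, Pi.smul_apply, smul_eq_mul]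
  ring

omit hi h3 in
theorem herm_smul_left (a : K) (u w : Fin 4 → K) :
    hermForm 4 K 3 (a • u) w = a * hermForm 4 K 3 u w := by
  simp only [hermForm, Fin.sum_univ_four, Pi.smul_apply, smul_eq_mul]
  ring

omit hi h3 in
theorem herm_smul_right (a : K) (u w : Fin 4 → K) :
    hermForm 4 K 3 u (a • w) = a ^ 3 * hermForm 4 K 3 u w := by
  simp only [hermForm, Fin.sum_univ_four, Pi.smul_apply, smul_eq_mul]
  ring

theorem hV_eq_zero {U V : ℕ} (h : hermForm 4 K 3 (toV i U) (toV i V) = 0) : hV U V = 0 := by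
  rw [herm_toV2 hi h3] at h
  exact φ_inj hi h3 (addC_lt _ _) (by norm_num : 0 < 9) (h.trans (φ_zero hi h3).symm)

theorem herm_eq_zero {U V : ℕ} (h : hV U V = 0) : hermForm 4 K 3 (toV i U) (toV i V) = 0 := by
  rw [herm_toV2 hi h3, h, φ_zero hi h3]

theorem toV_zero : toV i 0 = 0 := by
  funext t
  rw [toV_apply]
  show φ i (Nat.land (Nat.shiftRight 0 (4 * t.1)) 15) = 0
  have : Nat.land (Nat.shiftRight 0 (4 * t.1)) 15 = 0 := by simp
  rw [this, φ_zero hi h3]

/-- The classification of isotropic vectors. -/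
theorem iso_class [Fintype K] (hK : Fintype.card K = 9) (x : Fin 4 → K) (hx : hermForm 4 K 3 x x = 0) :
    x = 0 ∨ ∃ p < 280, ∃ s : K, s ≠ 0 ∧ x = s • toV i (rP p) := by
  obtain ⟨a, ha, b, hb, c, hc, d, hd, rfl⟩ := exists_code hi h3 hK x
  have h0 := hV_eq_zero hi h3 hx
  have h1 := allUpTo_iff.1 (allUpTo_iff.1 (allUpTo_iff.1 (allUpTo_iff.1 chk_pt a ha) b hb) c hc) d hd
  simp only [h0] at h1
  by_cases hV0 : packV a b c d = 0
  · left
    rw [hV0, toV_zero hi h3]
  right
  have hne : Nat.beq (packV a b c d) 0 = false := by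
    cases hb' : Nat.beq (packV a b c d) 0 with
    | false => rfl
    | true => exact absurd (Nat.eq_of_beq_eq_true hb') hV0
  have h2 : Nat.beq 0 0 = true := rfl
  rw [h2, cond_true, hne, cond_false] at h1
  cases h3' : Nat.beq (packV a b c d) (mulV (ptE a b c d / 512) (rP (ptE a b c d % 512))) with
  | false => rw [h3', cond_false] at h1; exact absurd h1 (by simp)
  | true =>
    rw [h3', cond_true] at h1
    cases h4 : Nat.blt (ptE a b c d % 512) 280 with
    | false => rw [h4, cond_false] at h1; exact absurd h1 (by simp)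
    | true =>
      rw [h4, cond_true] at h1
      cases h5 : Nat.blt (ptE a b c d / 512) 9 with
      | false => rw [h5, cond_false] at h1; exact absurd h1 (by simp)
      | true =>
        rw [h5, cond_true] at h1
        have h6 : ptE a b c d / 512 < 9 := by simpa using h5
        have h7 : 1 ≤ ptE a b c d / 512 := Nat.le_of_ble_eq_true h1
        have h8 : ptE a b c d % 512 < 280 := by simpa using h4
        refine ⟨_, h8, φ i (ptE a b c d / 512), ?_, ?_⟩
        · intro h
          have := φ_inj hi h3 h6 (by norm_num : 0 < 9) (h.trans (φ_zero hi h3).symm)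
          omega
        · rw [← toV_mulV hi h3, ← Nat.eq_of_beq_eq_true h3']

/-- The line with number `k`. -/
noncomputable def L (i : K) (k : ℕ) : Submodule K (Fin 4 → K) :=
  Submodule.span K {toV i (uL k), toV i (vL k)}

omit hi h3 in
theorem u_mem (k : ℕ) : toV i (uL k) ∈ L i k := Submodule.subset_span (by simp)

omit hi h3 in
theorem v_mem (k : ℕ) : toV i (vL k) ∈ L i k := Submodule.subset_span (by simp)

theorem lin_mem (k a b : ℕ) : toV i (lin a (uL k) b (vL k)) ∈ L i k := by
  rw [toV_lin hi h3]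
  exact Submodule.add_mem _ (Submodule.smul_mem _ _ (u_mem k)) (Submodule.smul_mem _ _ (v_mem k))

theorem mem_of_inLB {k x : ℕ} (h : inLB k x = true) : toV i x ∈ L i k := by
  obtain ⟨a, ha, h1⟩ := anyUpTo_iff.1 h
  obtain ⟨b, hb, h2⟩ := anyUpTo_iff.1 h1
  rw [← Nat.eq_of_beq_eq_true h2]
  exact lin_mem hi h3 _ _ _

theorem rP_mem {k q : ℕ} (hk : k < 112) (hq : q < 280) (h : inc k q = true) : toV i (rP q) ∈ L i k := by
  have h1 := allUpTo_iff.1 (allUpTo_iff.1 chk_inc k hk) q hq
  simp only [h, cond_true] at h1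
  exact mem_of_inLB hi h3 h1

theorem pair_line {p q : ℕ} (hp : p < 280) (hq : q < 280)
    (h : hermForm 4 K 3 (toV i (rP p)) (toV i (rP q)) = 0) :
    ∃ k < 112, toV i (rP p) ∈ L i k ∧ toV i (rP q) ∈ L i k := by
  have h0 := hV_eq_zero hi h3 h
  have h1 := allUpTo_iff.1 (allUpTo_iff.1 chk_pair p hp) q hq
  simp only [h0] at h1
  rw [show Nat.beq 0 0 = true from rfl, cond_true] at h1
  obtain ⟨t, ht, h2⟩ := anyUpTo_iff.1 h1
  cases h4 : inc (pl p t) p with
  | false => rw [h4, cond_false] at h2; exact absurd h2 (by simp)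
  | true =>
    rw [h4, cond_true] at h2
    cases h5 : inc (pl p t) q with
    | false => rw [h5, cond_false] at h2; exact absurd h2 (by simp)
    | true =>
      rw [h5, cond_true] at h2
      have h6 : pl p t < 112 := by simpa using h2
      exact ⟨_, h6, rP_mem hi h3 h6 hp h4, rP_mem hi h3 h6 hq h5⟩

/-- Two orthogonal isotropic vectors lie on a line. -/
theorem exists_line [Fintype K] (hK : Fintype.card K = 9) (x y : Fin 4 → K)
    (hx : hermForm 4 K 3 x x = 0) (hy : hermForm 4 K 3 y y = 0) (hxy : hermForm 4 K 3 x y = 0) :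
    ∃ k < 112, x ∈ L i k ∧ y ∈ L i k := by
  rcases iso_class hi h3 hK x hx with rfl | ⟨p, hp, s, hs, rfl⟩
  · rcases iso_class hi h3 hK y hy with rfl | ⟨q, hq, t, ht, rfl⟩
    · exact ⟨0, by norm_num, Submodule.zero_mem _, Submodule.zero_mem _⟩
    · have h1 : hermForm 4 K 3 (toV i (rP q)) (toV i (rP q)) = 0 := by
        rw [herm_smul_left, herm_smul_right] at hy
        have h2 : t * t ^ 3 ≠ 0 := mul_ne_zero ht (pow_ne_zero _ ht)
        have : t * t ^ 3 * hermForm 4 K 3 (toV i (rP q)) (toV i (rP q)) = 0 := by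
          rw [← hy]
          ring
        exact (mul_eq_zero.1 this).resolve_left h2
      obtain ⟨k, hk, h3', h4⟩ := pair_line hi h3 hq hq h1
      exact ⟨k, hk, Submodule.zero_mem _, Submodule.smul_mem _ _ h4⟩
  · rcases iso_class hi h3 hK y hy with rfl | ⟨q, hq, t, ht, rfl⟩
    · have h1 : hermForm 4 K 3 (toV i (rP p)) (toV i (rP p)) = 0 := by
        rw [herm_smul_left, herm_smul_right] at hx
        have h2 : s * s ^ 3 ≠ 0 := mul_ne_zero hs (pow_ne_zero _ hs)
        have : s * s ^ 3 * hermForm 4 K 3 (toV i (rP p)) (toV i (rP p)) = 0 := by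
          rw [← hx]
          ring
        exact (mul_eq_zero.1 this).resolve_left h2
      obtain ⟨k, hk, h3', h4⟩ := pair_line hi h3 hp hp h1
      exact ⟨k, hk, Submodule.smul_mem _ _ h4, Submodule.zero_mem _⟩
    · have h1 : hermForm 4 K 3 (toV i (rP p)) (toV i (rP q)) = 0 := by
        rw [herm_smul_left, herm_smul_right] at hxy
        have h2 : s * t ^ 3 ≠ 0 := mul_ne_zero hs (pow_ne_zero _ ht)
        have : s * t ^ 3 * hermForm 4 K 3 (toV i (rP p)) (toV i (rP q)) = 0 := by
          rw [← hxy]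
          ring
        exact (mul_eq_zero.1 this).resolve_left h2
      obtain ⟨k, hk, h3', h4⟩ := pair_line hi h3 hp hq h1
      exact ⟨k, hk, Submodule.smul_mem _ _ h3', Submodule.smul_mem _ _ h4⟩

theorem li_line {k : ℕ} (hk : k < 112) [Fintype K] (hK : Fintype.card K = 9) :
    LinearIndependent K ![toV i (uL k), toV i (vL k)] := by
  rw [LinearIndependent.pair_iff]
  intro s t hst
  obtain ⟨a, ha, rfl⟩ := φ_surj hi h3 hK s
  obtain ⟨b, hb, rfl⟩ := φ_surj hi h3 hK t
  rw [← toV_lin hi h3] at hst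
  -- the combination vanishes
  have hz : lin a (uL k) b (vL k) = 0 := by
    unfold lin at hst ⊢
    rw [toV_packV hi h3 (addC_lt _ _) (addC_lt _ _) (addC_lt _ _) (addC_lt _ _)] at hst
    have e0 := congrFun hst 0
    have e1 := congrFun hst 1
    have e2 := congrFun hst 2
    have e3 := congrFun hst 3
    have z0 := φ_inj hi h3 (addC_lt _ _) (by norm_num : 0 < 9) (e0.trans (φ_zero hi h3).symm)
    have z1 := φ_inj hi h3 (addC_lt _ _) (by norm_num : 0 < 9) (e1.trans (φ_zero hi h3).symm)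
    have z2 := φ_inj hi h3 (addC_lt _ _) (by norm_num : 0 < 9) (e2.trans (φ_zero hi h3).symm)
    have z3 := φ_inj hi h3 (addC_lt _ _) (by norm_num : 0 < 9) (e3.trans (φ_zero hi h3).symm)
    rw [z0, z1, z2, z3]
    rfl
  have h1 := allUpTo_iff.1 (allUpTo_iff.1 (allUpTo_iff.1 chk_li k hk) a ha) b hb
  simp only [hz] at h1
  rw [show Nat.beq 0 0 = true from rfl, cond_true] at h1
  cases h2 : Nat.beq a 0 with
  | false => rw [h2, cond_false] at h1; exact absurd h1 (by simp)
  | true =>
    rw [h2, cond_true] at h1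
    rw [Nat.eq_of_beq_eq_true h2, Nat.eq_of_beq_eq_true h1, φ_zero hi h3]
    exact ⟨rfl, rfl⟩

theorem finrank_L {k : ℕ} (hk : k < 112) [Fintype K] (hK : Fintype.card K = 9) :
    Module.finrank K (L i k) = 2 := by
  have h := finrank_span_eq_card (li_line hi h3 hk hK)
  have hr : Set.range ![toV i (uL k), toV i (vL k)] = {toV i (uL k), toV i (vL k)} := by
    simp [Matrix.range_cons, Matrix.range_empty, Set.pair_comm]
  rw [hr] at h
  have h2 : Module.finrank K (L i k) = Fintype.card (Fin 2) := h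
  simpa using h2

omit hi h3 in
theorem ti_line {k : ℕ} (hk : k < 112) :
    hV (uL k) (uL k) = 0 ∧ hV (uL k) (vL k) = 0 ∧ hV (vL k) (uL k) = 0 ∧ hV (vL k) (vL k) = 0 := by
  have h1 := allUpTo_iff.1 chk_ti k hk
  cases h2 : Nat.beq (hV (uL k) (uL k)) 0 with
  | false => rw [h2, cond_false] at h1; exact absurd h1 (by simp)
  | true =>
    rw [h2, cond_true] at h1
    cases h4 : Nat.beq (hV (uL k) (vL k)) 0 with
    | false => rw [h4, cond_false] at h1; exact absurd h1 (by simp)
    | true =>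
      rw [h4, cond_true] at h1
      cases h5 : Nat.beq (hV (vL k) (uL k)) 0 with
      | false => rw [h5, cond_false] at h1; exact absurd h1 (by simp)
      | true =>
        rw [h5, cond_true] at h1
        exact ⟨Nat.eq_of_beq_eq_true h2, Nat.eq_of_beq_eq_true h4, Nat.eq_of_beq_eq_true h5, Nat.eq_of_beq_eq_true h1⟩

/-- Different lines are different subspaces. -/
theorem L_inj {j k : ℕ} (hj : j < 112) (hk : k < 112) (h : L i j = L i k) : j = k := by
  by_contra hne
  have hu : toV i (uL j) ∈ L i k := h ▸ u_mem j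
  have hv : toV i (vL j) ∈ L i k := h ▸ v_mem j
  obtain ⟨h1, h2, h4, h5⟩ := ti_line hk
  have e1 := herm_eq_zero hi h3 h1
  have e2 := herm_eq_zero hi h3 h2
  have e4 := herm_eq_zero hi h3 h4
  have e5 := herm_eq_zero hi h3 h5
  obtain ⟨a, b, hab⟩ := Submodule.mem_span_pair.1 hu
  obtain ⟨c, d, hcd⟩ := Submodule.mem_span_pair.1 hv
  have f1 : hV (uL j) (uL k) = 0 := hV_eq_zero hi h3 (by rw [← hab, herm_add_left, e1, e4]; ring)
  have f2 : hV (uL j) (vL k) = 0 := hV_eq_zero hi h3 (by rw [← hab, herm_add_left, e2, e5]; ring)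
  have f3 : hV (vL j) (uL k) = 0 := hV_eq_zero hi h3 (by rw [← hcd, herm_add_left, e1, e4]; ring)
  have f4 : hV (vL j) (vL k) = 0 := hV_eq_zero hi h3 (by rw [← hcd, herm_add_left, e2, e5]; ring)
  have h6 := allUpTo_iff.1 (allUpTo_iff.1 chk_sep j hj) k hk
  have hb : Nat.beq j k = false := by
    cases hb' : Nat.beq j k with
    | false => rfl
    | true => exact absurd (Nat.eq_of_beq_eq_true hb') hne
  rw [hb, cond_false, f1, f2, f3, f4] at h6
  exact absurd h6 (by decide)

theorem L_le_inj [Fintype K] (hK : Fintype.card K = 9) {j k : ℕ} (hj : j < 112) (hk : k < 112) (h : L i j ≤ L i k) : j = k := by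
  apply L_inj hi h3 hj hk
  exact Submodule.eq_of_le_of_finrank_eq h ((finrank_L hi h3 hj hK).trans (finrank_L hi h3 hk hK).symm)

end K

/-! ## The group -/

section Group

variable {K : Type*} [Field K] [Fintype K] {i : K} (hi : i * i = -1) (h3 : (3 : K) = 0)
  (hK : Fintype.card K = 9)

/-- The linear map of an element. -/
noncomputable def lm (g : SU 4 K 3) : (Fin 4 → K) →ₗ[K] (Fin 4 → K) :=
  Matrix.mulVecLin (g.1.1 : Matrix (Fin 4) (Fin 4) K)

theorem lm_apply (g : SU 4 K 3) (u : Fin 4 → K) : lm g u = (g.1.1 : Matrix (Fin 4) (Fin 4) K) *ᵥ u := rfl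

theorem lm_herm (g : SU 4 K 3) (u v : Fin 4 → K) :
    hermForm 4 K 3 (lm g u) (lm g v) = hermForm 4 K 3 u v := g.2 u v

theorem lm_mul (g h : SU 4 K 3) : lm (g * h) = (lm g).comp (lm h) := by
  apply LinearMap.ext
  intro u
  show ((g * h).1.1 : Matrix (Fin 4) (Fin 4) K) *ᵥ u = (g.1.1 : Matrix (Fin 4) (Fin 4) K) *ᵥ ((h.1.1 : Matrix (Fin 4) (Fin 4) K) *ᵥ u)
  rw [Matrix.mulVec_mulVec]
  rfl

theorem lm_one : lm (1 : SU 4 K 3) = LinearMap.id := by
  apply LinearMap.ext
  intro u
  show ((1 : SU 4 K 3).1.1 : Matrix (Fin 4) (Fin 4) K) *ᵥ u = u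
  have : ((1 : SU 4 K 3).1.1 : Matrix (Fin 4) (Fin 4) K) = 1 := rfl
  rw [this, Matrix.one_mulVec]

theorem lm_inj (g : SU 4 K 3) : Function.Injective (lm g) := by
  intro u v h
  have h1 : lm (g⁻¹ * g) u = lm (g⁻¹ * g) v := by
    rw [lm_mul]
    show lm g⁻¹ (lm g u) = lm g⁻¹ (lm g v)
    rw [h]
  rw [inv_mul_cancel, lm_one] at h1
  exact h1

include hi h3 hK

/-- The image of a line is a line. -/
theorem map_line (g : SU 4 K 3) {j : ℕ} (hj : j < 112) : ∃ k < 112, (L i j).map (lm g) = L i k := by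
  obtain ⟨h1, h2, h4, h5⟩ := ti_line hj
  obtain ⟨k, hk, hx, hy⟩ := exists_line hi h3 hK (lm g (toV i (uL j))) (lm g (toV i (vL j)))
    (by rw [lm_herm]; exact herm_eq_zero hi h3 h1) (by rw [lm_herm]; exact herm_eq_zero hi h3 h5)
    (by rw [lm_herm]; exact herm_eq_zero hi h3 h2)
  refine ⟨k, hk, ?_⟩
  apply Submodule.eq_of_le_of_finrank_eq
  · show (Submodule.span K {toV i (uL j), toV i (vL j)}).map (lm g) ≤ _
    rw [Submodule.map_span, Set.image_pair, Submodule.span_le]
    rintro x (rfl | rfl)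
    · exact hx
    · exact hy
  · rw [← (Submodule.equivMapOfInjective (lm g) (lm_inj g) (L i j)).finrank_eq, finrank_L hi h3 hj hK,
      finrank_L hi h3 hk hK]


/-- The number of the image of a line. -/
noncomputable def psi0 (g : SU 4 K 3) (j : Fin 112) : Fin 112 :=
  ⟨Classical.choose (map_line hi h3 hK g j.2), (Classical.choose_spec (map_line hi h3 hK g j.2)).1⟩

theorem psi0_spec (g : SU 4 K 3) (j : Fin 112) :
    (L i j.1).map (lm g) = L i (psi0 hi h3 hK g j).1 :=
  (Classical.choose_spec (map_line hi h3 hK g j.2)).2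

theorem psi0_eq {g : SU 4 K 3} {j k : Fin 112} (h : (L i j.1).map (lm g) = L i k.1) : psi0 hi h3 hK g j = k := by
  apply Fin.ext
  apply L_inj hi h3 (psi0 hi h3 hK g j).2 k.2
  rw [← psi0_spec, h]

theorem psi0_mul (g h : SU 4 K 3) (j : Fin 112) :
    psi0 hi h3 hK (g * h) j = psi0 hi h3 hK g (psi0 hi h3 hK h j) := by
  apply psi0_eq
  rw [lm_mul, Submodule.map_comp, psi0_spec, psi0_spec]

theorem psi0_one (j : Fin 112) : psi0 hi h3 hK 1 j = j := by
  apply psi0_eq
  rw [lm_one, Submodule.map_id]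

/-- The action on the lines. -/
noncomputable def psi : SU 4 K 3 →* Equiv.Perm (Fin 112) where
  toFun g :=
    { toFun := psi0 hi h3 hK g
      invFun := psi0 hi h3 hK g⁻¹
      left_inv := fun j => by rw [← psi0_mul, inv_mul_cancel, psi0_one]
      right_inv := fun j => by rw [← psi0_mul, mul_inv_cancel, psi0_one] }
  map_one' := by
    ext j
    exact congrArg Fin.val (psi0_one hi h3 hK j)
  map_mul' g h := by
    ext j
    exact congrArg Fin.val (psi0_mul hi h3 hK g h j)

theorem psi_apply (g : SU 4 K 3) (j : Fin 112) : psi hi h3 hK g j = psi0 hi h3 hK g j := rfl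

/-- Reading the action off a table. -/
theorem psi_of_mem {g : SU 4 K 3} {j k : Fin 112} (h1 : lm g (toV i (uL j.1)) ∈ L i k.1)
    (h2 : lm g (toV i (vL j.1)) ∈ L i k.1) : psi hi h3 hK g j = k := by
  rw [psi_apply]
  apply Fin.ext
  apply L_le_inj hi h3 hK (psi0 hi h3 hK g j).2 k.2
  rw [← psi0_spec]
  show (Submodule.span K {toV i (uL j.1), toV i (vL j.1)}).map (lm g) ≤ _
  rw [Submodule.map_span, Set.image_pair, Submodule.span_le]
  rintro x (rfl | rfl)
  · exact h1
  · exact h2

end Group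

end Cfsg.Agent.Lib.McLRec.Lines
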