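import Cfsg.Agent.Lib.McLRec.Gr2

/-!
# The orbits of `P₀` on the hemisystems
-/

set_option autoImplicit false
set_option maxRecDepth 100000
set_option linter.unusedSectionVars false
set_option linter.unusedVariables false
set_option linter.style.longLine false

namespace Cfsg.Agent.Lib.McLRec.Gr

open Cfsg.Agent.Lib.PermComp.Core Cfsg.Agent.Lib.McLRec.GData Cfsg.Agent.Lib.McLRec.Aut
  Cfsg.Agent.Lib.McLRec.Hemi Cfsg.Agent.Lib.McLRec.LData Cfsg.Agent.Lib.McLRec.Pz
  Cfsg.Agent.Lib.McLRec.Tab Cfsg.Agent.Lib.McLRec.Del Cfsg.Agent.Lib.McLRec.CData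
open Cfsg.Agent.Lib.Golay.Core (allUpTo allUpTo_iff)

/-- An edge of a tree on hemisystems. -/
noncomputable def okH (c y x : ℕ) : Bool :=
  ifB (Nat.blt c 2) <| ifB (Nat.blt y 648) <| ifB (Nat.blt x 648) <|
    force (sol x) fun mx => force (sol y) fun my => force (nthN PZ_T c) fun g =>
      allUpTo (fun j => iffB (bit mx (app 7 127 g j)) (bit my j)) 112

/-- The trees. -/
def trOf (i : ℕ) : List (ℕ × ℕ × ℕ) := [TR0, TR1, TR2, TR3].getD i []

theorem chk_trees : allUpTo (fun i => treeChk okH (trOf i) (setBit 0 (162 * i))) 4 = true := by decide +kernel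

theorem chk_cover : allUpTo (fun i => force (treeMem (trOf i) (setBit 0 (162 * i))) fun m =>
    allUpTo (fun y => bit m (162 * i + y)) 162) 4 = true := by decide +kernel

theorem len_PZ : PZ_T.length = 2 := by decide +kernel

theorem sol_lt (s : ℕ) : sol s < 2 ^ 112 := by
  unfold sol
  have h : Nat.land (Nat.shiftRight SOLS (112 * s)) 5192296858534827628530496329220095 ≤ 5192296858534827628530496329220095 :=
    Nat.and_le_right
  have h2 : (5192296858534827628530496329220095 : ℕ) < 2 ^ 112 := by norm_num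
  exact lt_of_le_of_lt h h2

theorem sol_ext {s t : ℕ} (h : ∀ j < 112, bit (sol s) j = bit (sol t) j) : sol s = sol t := by
  apply Nat.eq_of_testBit_eq
  intro j
  by_cases hj : j < 112
  · rw [← bit_eq_testBit, ← bit_eq_testBit]
    exact h j hj
  · have hj' : 2 ^ 112 ≤ 2 ^ j := Nat.pow_le_pow_right (by norm_num) (by omega)
    rw [Nat.testBit_lt_two_pow (lt_of_lt_of_le (sol_lt s) hj'), Nat.testBit_lt_two_pow (lt_of_lt_of_le (sol_lt t) hj')]

theorem sol_dist {s t : ℕ} (hs : s < 648) (ht : t < 648) (h : ∀ j < 112, bit (sol s) j = bit (sol t) j) : s = t := by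
  have h1 := allUpTo_iff.1 chk_sol_dist s hs
  rw [force_eq] at h1
  have h2 := allUpTo_iff.1 h1 t ht
  rw [Bool.or_eq_true] at h2
  rcases h2 with h2 | h2
  · exact Nat.eq_of_beq_eq_true h2
  · rw [sol_ext h] at h2
    simp at h2

end Cfsg.Agent.Lib.McLRec.Gr
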