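import Cfsg.Agent.Lib.McLRec.Psi
import Cfsg.Agent.Lib.McLRec.Tr
import Cfsg.Agent.Lib.McLRec.Fin
import Cfsg.Agent.Lib.HSRec.Rank3

/-!
# The recognition of the group of degree 275
-/

set_option autoImplicit false
set_option maxRecDepth 100000
set_option linter.unusedSectionVars false
set_option linter.unusedVariables false
set_option linter.style.longLine false

namespace Cfsg.Agent.Lib.McLRec.Main

open MulAction Cfsg
open Cfsg.Agent.Lib.HSRec.Rank3
open Cfsg.Agent.Lib.PermComp.Core Cfsg.Agent.Lib.McLRec.GData Cfsg.Agent.Lib.McLRec.Aut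
  Cfsg.Agent.Lib.McLRec.Hemi Cfsg.Agent.Lib.McLRec.LData Cfsg.Agent.Lib.McLRec.Pz
  Cfsg.Agent.Lib.McLRec.Tab Cfsg.Agent.Lib.McLRec.Del Cfsg.Agent.Lib.McLRec.CData Cfsg.Agent.Lib.McLRec.Gr Cfsg.Agent.Lib.McLRec.SData
open Cfsg.Agent.Lib.Golay.Core (allUpTo allUpTo_iff)

section Act

variable {H : Type*} [Group H] {Ω : Type*} [MulAction H Ω]

/-- Change of the base point. -/
theorem exists_base (ρ : H →* Equiv.Perm (Fin 112)) (hinj : Function.Injective ρ) (hrange : ρ.range = P0) (b : Ω)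
    (hb : (orbit H b).ncard = 112) : ∃ b₀ ∈ orbit H b, ∀ h : H, h • b₀ = b₀ ↔ ρ h 0 = 0 := by
  have hH : Nat.card H = 3265920 := by
    rw [Nat.card_congr (MonoidHom.ofInjective hinj).toEquiv, hrange, card_P0]
  have hU : Nat.card (stabilizer H b) = 29160 := by
    have := orbit_stab (G := H) b
    rw [hb, hH] at this
    omega
  let V := (stabilizer H b).map ρ
  have hV : V ≤ P0 := by
    rintro _ ⟨u, -, rfl⟩
    rw [← hrange]
    exact ⟨u, rfl⟩
  have hVc : Nat.card V = 29160 := by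
    rw [← hU]
    exact Nat.card_congr ((stabilizer H b).equivMapOfInjective ρ hinj).symm.toEquiv
  obtain ⟨p, hp, hpx⟩ := conj_stab V hV hVc
  rw [← hrange] at hp
  obtain ⟨h₁, rfl⟩ := hp
  refine ⟨h₁⁻¹ • b, ⟨h₁⁻¹, rfl⟩, ?_⟩
  intro h
  have hρ : ρ h ∈ P0 := by
    rw [← hrange]
    exact ⟨h, rfl⟩
  rw [← hpx _ hρ]
  have e : ρ h₁ * ρ h * (ρ h₁)⁻¹ = ρ (h₁ * h * h₁⁻¹) := by simp
  rw [e]
  have hm : ρ (h₁ * h * h₁⁻¹) ∈ V ↔ h₁ * h * h₁⁻¹ ∈ stabilizer H b := Subgroup.mem_map_iff_mem hinj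
  rw [hm, mem_stabilizer_iff, mul_smul, mul_smul]
  constructor
  · intro h2
    rw [h2, smul_inv_smul]
  · intro h2
    rw [eq_inv_smul_iff]
    exact h2

variable (ρ : H →* Equiv.Perm (Fin 112)) (hrange : ρ.range = P0) {b₀ : Ω}

include hrange in
theorem exists_delta (hfix : ∀ h : H, h • b₀ = b₀ ↔ ρ h 0 = 0) :
    ∃ (hh : Fin 112 → H) (δ : Fin 112 → Ω), (∀ j, ρ (hh j) 0 = j) ∧ (∀ h j, δ (ρ h j) = h • δ j) ∧ δ 0 = b₀ ∧ Function.Injective δ ∧
      (∀ x, x ∈ orbit H b₀ ↔ ∃ j, x = δ j) := by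
  have hex : ∀ j : Fin 112, ∃ h : H, ρ h 0 = j := by
    intro j
    obtain ⟨g, hg, hj⟩ := trans_P0 j
    rw [← hrange] at hg
    obtain ⟨h, rfl⟩ := hg
    exact ⟨h, hj⟩
  choose hh hhj using hex
  let δ : Fin 112 → Ω := fun j => hh j • b₀
  have hfix' : ∀ u v : H, ρ u 0 = ρ v 0 → u • b₀ = v • b₀ := by
    intro u v huv
    have h1 : ρ (v⁻¹ * u) 0 = 0 := by
      rw [map_mul, Equiv.Perm.mul_apply, huv, map_inv]
      simp
    have h2 := (hfix _).2 h1
    rw [mul_smul, inv_smul_eq_iff] at h2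
    exact h2
  have hfix'' : ∀ u v : H, u • b₀ = v • b₀ → ρ u 0 = ρ v 0 := by
    intro u v huv
    have h1 : (v⁻¹ * u) • b₀ = b₀ := by
      rw [mul_smul, huv, inv_smul_smul]
    have h2 := (hfix _).1 h1
    rw [map_mul, Equiv.Perm.mul_apply, map_inv] at h2
    rw [Equiv.Perm.inv_eq_iff_eq] at h2
    exact h2
  have hδ : ∀ h j, δ (ρ h j) = h • δ j := by
    intro h j
    show hh (ρ h j) • b₀ = h • hh j • b₀
    rw [← mul_smul]
    apply hfix'
    rw [hhj, map_mul, Equiv.Perm.mul_apply, hhj]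
  have h0 : δ 0 = b₀ := by
    show hh 0 • b₀ = b₀
    exact (hfix _).2 (hhj 0)
  refine ⟨hh, δ, hhj, hδ, h0, ?_, ?_⟩
  · intro j k hjk
    have := hfix'' _ _ hjk
    rwa [hhj, hhj] at this
  · intro x
    constructor
    · rintro ⟨h, rfl⟩
      refine ⟨ρ h 0, ?_⟩
      rw [hδ, h0]
    · rintro ⟨j, rfl⟩
      exact ⟨hh j, rfl⟩

end Act

theorem colP : ∀ p ∈ P0, ∀ j k : Fin 112, col (p j).1 (p k).1 = true ↔ col j.1 k.1 = true := by
  let K : Subgroup (Equiv.Perm (Fin 112)) :=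
    { carrier := {p | ∀ j k : Fin 112, col (p j).1 (p k).1 = true ↔ col j.1 k.1 = true}
      mul_mem' := fun {x y} hx hy j k => (hx (y j) (y k)).trans (hy j k)
      one_mem' := fun j k => Iff.rfl
      inv_mem' := fun {x} hx j k => by
        have := hx (x⁻¹ j) (x⁻¹ k)
        simpa using this.symm }
  have hle : P0 ≤ K := by
    apply (Subgroup.closure_le _).2
    rintro g ⟨c, hc, hg⟩ j k
    rw [Psi.chk_T] at hc
    have h1 := (allL_eq_true _ _).1 chk_gen_col c hc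
    have h2 := (iffB_eq_true _ _).1 (allUpTo_iff.1 (allUpTo_iff.1 h1 j.1 j.2) k.1 k.2)
    rw [rp_apply hg, rp_apply hg]
    exact h2
  exact fun p hp => hle hp

section Graph

variable {H : Type*} [Group H] {Ω : Type*} [Fintype Ω] [DecidableEq Ω] [MulAction H Ω]
variable (ρ : H →* Equiv.Perm (Fin 112)) (hrange : ρ.range = P0) {a b₀ : Ω}
variable {Γ : SimpleGraph Ω} [DecidableRel Γ.Adj] {δ : Fin 112 → Ω} {hh : Fin 112 → H}

include hrange in
open scoped _root_.Classical in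
theorem first_of (hfix : ∀ h : H, h • b₀ = b₀ ↔ ρ h 0 = 0) (hhj : ∀ j, ρ (hh j) 0 = j)
    (hδ : ∀ h j, δ (ρ h j) = h • δ j) (h0 : δ 0 = b₀) (hinj : Function.Injective δ)
    (hnb : ∀ x, Γ.Adj a x ↔ ∃ j, x = δ j)
    (hΓ : ∀ (h : H) x y, Γ.Adj (h • x) (h • y) ↔ Γ.Adj x y) {μ : ℕ}
    (hsrg : Γ.IsSRGWith 275 112 (Γ.commonNeighbors a b₀).ncard μ) : First Γ a δ := by
  obtain ⟨X, hXd⟩ : ∃ X : Fin 112 → Prop, ∀ j, X j ↔ Γ.Adj b₀ (δ j) := ⟨_, fun _ => Iff.rfl⟩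
  have hInv : Inv X := by
    intro g hg j
    have hg' : g ∈ ρ.range := by
      rw [hrange]
      exact S0_le hg
    obtain ⟨h, rfl⟩ := hg'
    have hb : h • b₀ = b₀ := (hfix h).2 (S0_fix _ hg)
    rw [hXd, hXd, hδ]
    conv_lhs => rw [← hb]
    exact hΓ _ _ _
  have hcommon : Γ.commonNeighbors a b₀ = δ '' (↑(Finset.univ.filter fun j : Fin 112 => X j) : Set (Fin 112)) := by
    ext x
    simp only [SimpleGraph.mem_commonNeighbors, Set.mem_image, Finset.coe_filter, Finset.mem_univ, true_and, Set.mem_ofPred_eq, hnb, hXd]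
    constructor
    · rintro ⟨⟨j, rfl⟩, h2⟩
      exact ⟨j, h2, rfl⟩
    · rintro ⟨j, h2, rfl⟩
      exact ⟨⟨j, rfl⟩, h2⟩
  have hlam : (Γ.commonNeighbors a b₀).ncard = (Finset.univ.filter fun j : Fin 112 => X j).card := by
    rw [hcommon, Set.ncard_image_of_injective _ hinj, Set.ncard_coe_finset]
  have hX0 : ¬ Xn X 0 := by
    intro h
    have h1 : Γ.Adj b₀ (δ 0) := (hXd 0).1 ((Xn_iff X 0).1 h)
    rw [h0] at h1
    exact Γ.loopless.irrefl _ h1
  have hcard := inv_card hInv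
  rw [← hlam] at hcard
  have hparam := SimpleGraph.IsSRGWith.param_eq Γ hsrg (by norm_num)
  have hno : ¬ (Γ.commonNeighbors a b₀).ncard = 111 := by
    intro h
    rw [h] at hsrg
    have := dvd_of_srg hsrg (by norm_num)
    omega
  have hs1 : Xn X r1 ∧ Xn X r2 ∧ ¬ Xn X r3 := by
    rw [decide_eq_false hX0] at hcard
    by_cases c1 : Xn X r1 <;> by_cases c2 : Xn X r2 <;> by_cases c3 : Xn X r3 <;>
      simp only [c1, c2, c3, decide_true, decide_false, cond_true, cond_false] at hcard <;>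
      first
        | exact ⟨by assumption, by assumption, by assumption⟩
        | (rw [hcard] at hparam hno; omega)
  obtain ⟨c1, c2, c3⟩ := hs1
  have hlam30 : (Γ.commonNeighbors a b₀).ncard = 30 := by
    rw [decide_eq_false hX0, decide_eq_true c1, decide_eq_true c2, decide_eq_false c3] at hcard
    exact hcard
  have hmu : μ = 56 := by
    rw [hlam30] at hparam
    omega
  have hsel : ∀ j, X j ↔ col 0 j.1 = true := by
    intro j
    rw [inv_sel hInv j, decide_eq_false hX0, decide_eq_true c1, decide_eq_true c2, decide_eq_false c3]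
    exact ((iffB_eq_true _ _).1 (allUpTo_iff.1 chk_lab0 j.1 j.2)).symm
  refine ⟨?_, hinj, hnb, ?_⟩
  · rw [hlam30, hmu] at hsrg
    exact hsrg
  · intro j k
    have hj0 : ρ (hh j)⁻¹ j = 0 := by
      rw [map_inv, Equiv.Perm.inv_eq_iff_eq, hhj]
    have hP : ρ (hh j)⁻¹ ∈ P0 := by
      rw [← hrange]
      exact ⟨_, rfl⟩
    rw [← hΓ (hh j)⁻¹, ← hδ, ← hδ, hj0, ← colP _ hP j k, hj0, Fin.val_zero, ← hsel, hXd, h0]

end Graph

section Second

variable {H : Type*} [Group H] {Ω : Type*} [Fintype Ω] [DecidableEq Ω] [MulAction H Ω]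
variable (ρ : H →* Equiv.Perm (Fin 112)) (hrange : ρ.range = P0) {a : Ω}
variable {Γ : SimpleGraph Ω} {δ : Fin 112 → Ω}

/-- A hemisystem realised by a vertex at distance two from `a`. -/
def Rl (Γ : SimpleGraph Ω) (a : Ω) (δ : Fin 112 → Ω) (s : ℕ) : Prop :=
  s < 648 ∧ ∃ x, x ≠ a ∧ ¬ Γ.Adj a x ∧ ∀ j : Fin 112, Γ.Adj x (δ j) ↔ bit (sol s) j.1 = true

include hrange in
theorem okH_sound (hδ : ∀ h j, δ (ρ h j) = h • δ j) (ha : ∀ h : H, h • a = a)
    (hΓ : ∀ (h : H) x y, Γ.Adj (h • x) (h • y) ↔ Γ.Adj x y) (c y x : ℕ) (hk : okH c y x = true) :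
    Rl Γ a δ y ↔ Rl Γ a δ x := by
  unfold okH at hk
  rw [ifB_eq_true, ifB_eq_true, ifB_eq_true, force_eq, force_eq, force_eq] at hk
  obtain ⟨hc, hy, hx, hk⟩ := hk
  have hc' : c < 2 := Nat.le_of_ble_eq_true hc
  have hy' : y < 648 := Nat.le_of_ble_eq_true hy
  have hx' : x < 648 := Nat.le_of_ble_eq_true hx
  have hmem : nthN PZ_T c ∈ PZ_T := nthN_mem _ _ (by rw [len_PZ]; exact hc')
  obtain ⟨g, hg⟩ : ∃ g, Rp (nthN PZ_T c) g := exists_rep ((allL_eq_true _ _).1 chk_validP _ hmem)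
  have hgP : g ∈ P0 := Subgroup.subset_closure ⟨_, hmem, hg⟩
  have hgr : g ∈ ρ.range := by
    rw [hrange]
    exact hgP
  obtain ⟨u, rfl⟩ := hgr
  have hb : ∀ j : Fin 112, bit (sol x) (ρ u j).1 = true ↔ bit (sol y) j.1 = true := by
    intro j
    rw [rp_apply hg]
    exact (iffB_eq_true _ _).1 (allUpTo_iff.1 hk j.1 j.2)
  have hne : ∀ (v : H) (w : Ω), w ≠ a → v • w ≠ a := by
    intro v w hw h'
    apply hw
    rw [← ha v] at h'
    exact smul_left_cancel v h'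
  have hnadj : ∀ (v : H) (w : Ω), ¬ Γ.Adj a w → ¬ Γ.Adj a (v • w) := by
    intro v w hw h'
    apply hw
    rw [← ha v] at h'
    exact (hΓ v _ _).1 h'
  constructor
  · rintro ⟨_, w, w1, w2, w3⟩
    refine ⟨hx', u • w, hne u w w1, hnadj u w w2, ?_⟩
    intro j
    have e : δ j = u • δ ((ρ u)⁻¹ j) := by
      rw [← hδ]
      simp
    have e2 : (ρ u) ((ρ u)⁻¹ j) = j := by simp
    rw [e, hΓ, w3, ← hb, e2]
  · rintro ⟨_, w, w1, w2, w3⟩
    refine ⟨hy', u⁻¹ • w, hne _ w w1, hnadj _ w w2, ?_⟩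
    intro j
    have e : δ (ρ u j) = u • δ j := hδ u j
    have e2 : Γ.Adj (u⁻¹ • w) (δ j) ↔ Γ.Adj w (u • δ j) := by
      rw [← hΓ u, smul_inv_smul]
    rw [e2, ← e, w3, hb]

end Second

/-- The recognition theorem, given the representation of degree 112 of the stabiliser. -/
theorem main_of_rho {Ω : Type*} [Fintype Ω] [DecidableEq Ω] (hΩ : Fintype.card Ω = 275) {G : Subgroup (Equiv.Perm Ω)}
    [IsPretransitive G Ω] (a : Ω) (ρ : stabilizer G a →* Equiv.Perm (Fin 112)) (hinj : Function.Injective ρ)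
    (hrange : ρ.range = P0) (b c : Ω) (hb : (orbit (stabilizer G a) b).ncard = 112)
    (hc : (orbit (stabilizer G a) c).ncard = 162) : Cfsg.Spor.IsoMcL G := by
  classical
  obtain ⟨b₀, hb₀, hfix⟩ := exists_base ρ hinj hrange b hb
  obtain ⟨hh, δ, hhj, hδ, h0, hinjδ, horb⟩ := exists_delta ρ hrange hfix
  have hob : orbit (stabilizer G a) b₀ = orbit (stabilizer G a) b := orbit_eq_iff.2 hb₀
  have S : Setup G a b₀ c 112 162 :=
    ⟨by rw [hob, hb], hc, by rw [hΩ], by norm_num, by norm_num, by norm_num⟩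
  obtain ⟨hsw, hab⟩ : (∃ w : G, w • a = b₀ ∧ w • b₀ = a) ∧ a ≠ b₀ := ⟨exists_swap S, a_ne_b S⟩
  obtain ⟨Γ, hΓd⟩ : ∃ Γ : SimpleGraph Ω, Γ = graph hsw hab := ⟨_, rfl⟩
  have hG0 : ∀ (g : G) x y, Γ.Adj (g • x) (g • y) ↔ Γ.Adj x y := by
    intro g x y
    rw [hΓd]
    exact adj_smul g
  have hΓ : ∀ (h : stabilizer G a) x y, Γ.Adj (h • x) (h • y) ↔ Γ.Adj x y := fun h x y => hG0 h.1 x y
  have hnb : ∀ x, Γ.Adj a x ↔ ∃ j, x = δ j := by
    intro x
    rw [hΓd, adj_a_iff, horb]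
  have hsrg0 : Γ.IsSRGWith 275 112 (Γ.commonNeighbors a b₀).ncard (Γ.commonNeighbors a c).ncard := by
    rw [← hΩ, hΓd]
    exact isSRG S
  have F : First Γ a δ := first_of ρ hrange hfix hhj hδ h0 hinjδ hnb hΓ hsrg0
  have hca : c ≠ a := fun h => a_not_mem_c S (by rw [← h]; exact mem_orbit_self c)
  have hcn : ¬ Γ.Adj a c := by
    rw [hΓd, adj_a_iff]
    intro h
    exact Set.disjoint_left.1 (disj S) h (mem_orbit_self c)
  obtain ⟨s₀, hs₀, hs₀b⟩ := hemi F hca hcn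
  have hP0 : Rl Γ a δ s₀ := ⟨hs₀, c, hca, hcn, hs₀b⟩
  have ha : ∀ h : stabilizer G a, h • a = a := fun h => h.2
  have hok := okH_sound ρ hrange hδ ha hΓ
  obtain ⟨i, hid⟩ : ∃ i, i = s₀ / 162 := ⟨_, rfl⟩
  have hi : i < 4 := by omega
  have hy0 : s₀ = 162 * i + s₀ % 162 := by omega
  have htree := tree_sound (r := 162 * i) hok (trOf i) (setBit 0 (162 * i)) (allUpTo_iff.1 chk_trees i hi) (by
    intro y hy
    rw [bit_setBit] at hy
    rcases hy with hy | hy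
    · exact absurd hy (by simp [bit])
    · rw [hy])
  have hcov := allUpTo_iff.1 chk_cover i hi
  rw [force_eq] at hcov
  have hall : ∀ y : Fin 162, Rl Γ a δ (162 * i + y.1) := by
    intro y
    have h1 := htree _ (allUpTo_iff.1 hcov y.1 y.2)
    have h2 := htree s₀ (by
      rw [hy0]
      exact allUpTo_iff.1 hcov _ (Nat.mod_lt _ (by norm_num)))
    exact h1.2 (h2.1 hP0)
  choose hlt σ hσ1 hσ2 hσ3 using hall
  have S2 : Second Γ a δ i σ := by
    refine ⟨hi, ?_, hσ1, hσ2, hσ3⟩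
    intro y y' hyy
    have h1 : 162 * i + y.1 = 162 * i + y'.1 := by
      apply sol_dist (hlt y) (hlt y')
      intro j hj
      rw [Bool.eq_iff_iff, ← hσ3 y ⟨j, hj⟩, ← hσ3 y' ⟨j, hj⟩, hyy]
    exact Fin.ext (by omega)
  obtain ⟨E, hE⟩ := exists_iso hΩ F S2
  have hcard : Nat.card G = 898128000 := by
    have h1 := orbit_stab (G := G) a
    have h2 : orbit G a = Set.univ := orbit_eq_univ G a
    have h3 : Nat.card (stabilizer G a) = 3265920 := by
      rw [Nat.card_congr (MonoidHom.ofInjective hinj).toEquiv, hrange, card_P0]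
    rw [h2, Set.ncard_univ, Nat.card_eq_fintype_card, hΩ, h3] at h1
    omega
  exact Fin.final G Γ E hE (fun g hg x y => hG0 ⟨g, hg⟩ x y) hcard

end Cfsg.Agent.Lib.McLRec.Main
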