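import Cfsg.Agent.Lib.McLRec.Aut
import Cfsg.Agent.Lib.LeechP.McL2

/-!
# The model of `McL` acts on the graph
-/

set_option autoImplicit false
set_option maxRecDepth 100000
set_option linter.unusedSectionVars false
set_option linter.unusedVariables false
set_option linter.style.longLine false

namespace Cfsg.Agent.Lib.McLRec.PPAut

open Cfsg Cfsg.Agent.Lib.Golay.Core Cfsg.Agent.Lib.Leech.Basic Cfsg.Agent.Lib.Leech.Lat
  Cfsg.Agent.Lib.Leech.Vec Cfsg.Agent.Lib.Leech.Reach Cfsg.Agent.Lib.Leech.Word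
  Cfsg.Agent.Lib.Leech.Cert Cfsg.Agent.Lib.Leech.Packed Cfsg.Agent.Lib.PermComp.Core
  Cfsg.Agent.Lib.Leech.CertC275 Cfsg.Agent.Lib.LeechP Cfsg.Agent.Lib.LeechP.McL
  Cfsg.Agent.Lib.McLRec.Aut

theorem chk_dot : allUpTo (fun i => force (adjM i) fun a => force (xOf e0.1 i) fun x =>
    allUpTo (fun j => iffB (Cfsg.Agent.Lib.PermComp.Core.bit a j) (dotIs x (xOf e0.1 j) 8 0)) 275) 275 = true := by
  decide +kernel

theorem A0_iff (i j : Fin 275) : A0 i.1 j.1 = true ↔ dotInt (dec (xOf e0.1 i.1)) (dec (xOf e0.1 j.1)) = 8 := by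
  have h1 := allUpTo_iff.1 chk_dot i.1 i.2
  rw [force_eq, force_eq] at h1
  have h2 := (iffB_eq_true _ _).1 (allUpTo_iff.1 h1 j.1 j.2)
  rw [show A0 i.1 j.1 = Cfsg.Agent.Lib.PermComp.Core.bit (adjM i.1) j.1 from rfl, h2, dotIs_iff]
  simp

/-- The model of `McL` preserves the graph. -/
theorem PP_le_AutA : PP ≤ AutA := by
  rintro _ ⟨h, rfl⟩ x y
  rw [Bool.eq_iff_iff, A0_iff, A0_iff]
  have e1 := num.phi_spec h x
  have e2 := num.phi_spec h y
  rw [← num.equiv_coe, ← num.equiv_coe, ← num.equiv_coe, ← num.equiv_coe, ← e1, ← e2]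
  rw [show h.1 • (num.equiv x).1 = h.1 • (num.equiv x).1 from rfl, smul_dot]

end Cfsg.Agent.Lib.McLRec.PPAut
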