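import Cfsg.Agent.Lib.McLRec.Pz

/-!
# The subgroups of index 112 of `P₀`
-/

set_option autoImplicit false
set_option maxRecDepth 100000
set_option linter.unusedSectionVars false
set_option linter.unusedVariables false
set_option linter.style.longLine false

namespace Cfsg.Agent.Lib.McLRec.Pz

open Cfsg.Agent.Lib.PermComp Cfsg.Agent.Lib.PermComp.Core Cfsg.Agent.Lib.McLRec.CData Cfsg.Agent.Lib.McLRec.SData
open Cfsg.Agent.Lib.Golay.Core (allUpTo allUpTo_iff)

theorem chk_pts : allUpTo (fun j => memN j (ptsOf PZ_lev0)) 112 = true := by decide +kernel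
theorem chk_base : PZ_lev0.base = 0 := by decide +kernel

/-- `P₀` is transitive. -/
theorem trans_P0 (j : Fin 112) : ∃ g ∈ P0, g 0 = j := by
  have hS := main_P.2.2.2.1
  have h0 : LevelSem 7 127 (Equiv.refl (Fin 112)) PZ_L PZ_maskL PZ_lev0 [PZ_lev1, PZ_lev2, PZ_lev3] := hS.1
  have hb : ((Equiv.refl (Fin 112) (0 : Fin 112) : Fin 112) : ℕ) = PZ_lev0.base := chk_base.symm
  have h1 := (Chain.orbit_iff h0 hb j).1 ((memN_eq_true _ _).1 (allUpTo_iff.1 chk_pts j.1 j.2))
  obtain ⟨g, hg, hgj⟩ := h1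
  refine ⟨g, ?_, hgj⟩
  show g ∈ H 7 127 (Equiv.refl (Fin 112)) PZ_T
  rw [main_P.2.2.2.2.1]
  exact hg

theorem chk_S_fix : allL (fun c => Nat.beq (app 7 127 c 0) 0) SZ_T = true := by decide +kernel

theorem S0_fix : ∀ g ∈ S0, g 0 = 0 := by
  have h : S0 ≤ MulAction.stabilizer (Equiv.Perm (Fin 112)) (0 : Fin 112) := by
    apply (Subgroup.closure_le _).2
    rintro g ⟨c, hc, hg⟩
    have h1 := Nat.eq_of_beq_eq_true ((allL_eq_true _ _).1 chk_S_fix c hc)
    show g 0 = 0
    apply Fin.ext
    rw [rp_apply hg]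
    exact h1
  exact fun g hg => h hg

theorem orbit_stab {G α : Type*} [Group G] [MulAction G α] (x : α) :
    (MulAction.orbit G x).ncard * Nat.card (MulAction.stabilizer G x) = Nat.card G := by
  rw [← MulAction.index_stabilizer, mul_comm]
  exact Subgroup.card_mul_index _

/-- The stabiliser of a point in `P₀` has order 29160. -/
theorem card_stab0 : Nat.card (MulAction.stabilizer P0 (0 : Fin 112)) = 29160 := by
  have h := orbit_stab (G := P0) (0 : Fin 112)
  have h1 : MulAction.orbit P0 (0 : Fin 112) = Set.univ := by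
    ext j
    simp only [Set.mem_univ, iff_true]
    obtain ⟨g, hg, hj⟩ := trans_P0 j
    exact ⟨⟨g, hg⟩, hj⟩
  rw [h1, Set.ncard_univ, Nat.card_eq_fintype_card, Fintype.card_fin, card_P0] at h
  omega

/-- An element of order 5 moving a small invariant set fixes it. -/
theorem fix_of_small {α : Type*} [Finite α] (t : Equiv.Perm α) (ht : orderOf t = 5) (O : Set α) (hO : ∀ j ∈ O, t j ∈ O)
    (hO' : ∀ j ∈ O, t⁻¹ j ∈ O) (hc : O.ncard < 5) : ∀ j ∈ O, t j = j := by
  intro j hj
  have h := orbit_stab (G := Subgroup.zpowers t) j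
  rw [Nat.card_zpowers, ht] at h
  have key : ∀ k : ℤ, (t ^ k) j ∈ O := by
    intro k
    induction k using Int.induction_on with
    | zero => simpa using hj
    | succ n ih =>
      rw [add_comm, zpow_add, zpow_one, Equiv.Perm.mul_apply]
      exact hO _ ih
    | pred n ih =>
      rw [sub_eq_add_neg, add_comm, zpow_add, zpow_neg, zpow_one, Equiv.Perm.mul_apply]
      exact hO' _ ih
  have hsub : MulAction.orbit (Subgroup.zpowers t) j ⊆ O := by
    rintro _ ⟨⟨g, hg⟩, rfl⟩
    obtain ⟨k, rfl⟩ := Subgroup.mem_zpowers_iff.1 hg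
    exact key k
  have hle : (MulAction.orbit (Subgroup.zpowers t) j).ncard ≤ O.ncard := Set.ncard_le_ncard hsub (Set.toFinite _)
  have hd : (MulAction.orbit (Subgroup.zpowers t) j).ncard ∣ 5 := ⟨_, h.symm⟩
  have h1 : (MulAction.orbit (Subgroup.zpowers t) j).ncard = 1 := by
    rcases (Nat.dvd_prime (by norm_num : Nat.Prime 5)).1 hd with h2 | h2
    · exact h2
    · omega
  obtain ⟨a, ha⟩ := Set.ncard_eq_one.1 h1
  have h2 : j ∈ MulAction.orbit (Subgroup.zpowers t) j := MulAction.mem_orbit_self j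
  have h3 : (⟨t, Subgroup.mem_zpowers t⟩ : Subgroup.zpowers t) • j ∈ MulAction.orbit (Subgroup.zpowers t) j :=
    MulAction.mem_orbit _ _
  rw [ha] at h2 h3
  rw [Set.mem_singleton_iff] at h2 h3
  exact h3.trans h2.symm

/-- Elements of order 5 of `P₀` have exactly two fixed points at most. -/
theorem fix_five (t : Equiv.Perm (Fin 112)) (ht : t ∈ P0) (h5 : orderOf t = 5) :
    (Finset.univ.filter fun j : Fin 112 => t j = j).card ≤ 2 := by
  obtain ⟨u, huP, hu⟩ := exists_u
  obtain ⟨huo, huf⟩ := u_props hu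
  haveI : Fact (Nat.Prime 5) := ⟨by norm_num⟩
  have hzu : Subgroup.zpowers u ≤ P0 := by
    rw [Subgroup.zpowers_le]
    exact huP
  have hzt : Subgroup.zpowers t ≤ P0 := by
    rw [Subgroup.zpowers_le]
    exact ht
  obtain ⟨g, hg, hconj⟩ := exists_conj_of_card P0 (Subgroup.zpowers u) (Subgroup.zpowers t) hzu hzt 5
    (by rw [Nat.card_zpowers, huo]; exact fac5) (by rw [Nat.card_zpowers, h5]; exact fac5)
  rw [← huf]
  apply Finset.card_le_card_of_injOn (fun j => g⁻¹ j)
  · intro j hj
    simp only [Finset.coe_filter, Finset.mem_univ, true_and, Set.mem_ofPred_eq] at hj ⊢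
    have h1 := hconj u (Subgroup.mem_zpowers u)
    obtain ⟨k, hk⟩ := Subgroup.mem_zpowers_iff.1 h1
    have h2 : (t ^ k) j = j := by
      have hfix : ∀ k : ℤ, (t ^ k) j = j := by
        intro k
        induction k using Int.induction_on with
        | zero => simp
        | succ n ih => rw [zpow_add, zpow_one, Equiv.Perm.mul_apply, hj, ih]
        | pred n ih =>
          rw [zpow_sub, zpow_one, Equiv.Perm.mul_apply]
          have : t⁻¹ j = j := by
            rw [Equiv.Perm.inv_eq_iff_eq]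
            exact hj.symm
          rw [this, ih]
      exact hfix k
    rw [hk] at h2
    have h3 : g (u (g⁻¹ j)) = j := h2
    rw [Equiv.Perm.eq_inv_iff_eq]
    exact h3
  · intro a _ b _ h
    exact g⁻¹.injective h

theorem dvd_cases : ∀ b c d : Bool, (cond true 1 0 + cond b 3 0 + cond c 27 0 + cond d 81 0) ∣ 40 →
    (cond true 1 0 + cond b 3 0 + cond c 27 0 + cond d 81 0 = 1 ∨ cond true 1 0 + cond b 3 0 + cond c 27 0 + cond d 81 0 = 4) := by
  decide

/-- The key fact: a subgroup of order 29160 of `P₀` is conjugate to the stabiliser of a point. -/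
theorem conj_stab (V : Subgroup (Equiv.Perm (Fin 112))) (hV : V ≤ P0) (hc : Nat.card V = 29160) :
    ∃ p ∈ P0, ∀ x ∈ P0, (p * x * p⁻¹ ∈ V ↔ x 0 = 0) := by
  classical
  haveI : Fact (Nat.Prime 3) := ⟨by norm_num⟩
  haveI : Fact (Nat.Prime 5) := ⟨by norm_num⟩
  obtain ⟨Q', hQ'⟩ := Sylow.exists_subgroup_card_pow_prime (G := V) 3 (n := 6) (by rw [hc]; norm_num)
  let Q : Subgroup (Equiv.Perm (Fin 112)) := Q'.map V.subtype
  have hQc : Nat.card Q = 729 := by
    have : Nat.card Q = Nat.card Q' :=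
      (Nat.card_congr (Q'.equivMapOfInjective V.subtype V.subtype_injective).toEquiv).symm
    rw [this, hQ']
    norm_num
  have hQV : Q ≤ V := by
    rintro _ ⟨x, _, rfl⟩
    exact x.2
  obtain ⟨p, hp, hconj⟩ := exists_conj_of_card P0 S0 Q S0_le (hQV.trans hV) 3 (by rw [card_S0]; exact fac3)
    (by rw [hQc]; exact fac3)
  refine ⟨p, hp, ?_⟩
  let W : Subgroup (Equiv.Perm (Fin 112)) := V.map (MulAut.conj p⁻¹).toMonoidHom
  have memW : ∀ x, x ∈ W ↔ p * x * p⁻¹ ∈ V := by
    intro x
    constructor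
    · rintro ⟨y, hy, rfl⟩
      have : p * (MulAut.conj p⁻¹).toMonoidHom y * p⁻¹ = y := by
        show p * (p⁻¹ * y * p⁻¹⁻¹) * p⁻¹ = y
        group
      rw [this]
      exact hy
    · intro h
      refine ⟨_, h, ?_⟩
      show p⁻¹ * (p * x * p⁻¹) * p⁻¹⁻¹ = x
      group
  have hSW : S0 ≤ W := fun x hx => (memW x).2 (hQV (hconj x hx))
  have hWP : W ≤ P0 := by
    intro x hx
    have h1 := hV ((memW x).1 hx)
    have h2 : x = p⁻¹ * (p * x * p⁻¹) * p := by group
    rw [h2]
    exact P0.mul_mem (P0.mul_mem (P0.inv_mem hp) h1) hp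
  have hWc : Nat.card W = 29160 := by
    rw [← hc]
    exact (Nat.card_congr ((MulAut.conj p⁻¹).subgroupMap V).toEquiv).symm
  -- the orbit of `0` under `W`
  let X : Fin 112 → Prop := fun j => ∃ w ∈ W, w 0 = j
  have hX0 : X 0 := ⟨1, W.one_mem, rfl⟩
  have hXinv : Inv X := by
    intro g hg j
    constructor
    · rintro ⟨w, hw, h⟩
      refine ⟨g⁻¹ * w, W.mul_mem (W.inv_mem (hSW hg)) hw, ?_⟩
      rw [Equiv.Perm.mul_apply, h]
      exact g.symm_apply_apply j
    · rintro ⟨w, hw, rfl⟩
      exact ⟨g * w, W.mul_mem (hSW hg) hw, rfl⟩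
  have hcardX := inv_card hXinv
  have hXn0 : Xn X 0 := (Xn_iff X 0).2 hX0
  rw [decide_eq_true hXn0] at hcardX
  -- orbit-stabiliser
  have horb : MulAction.orbit W (0 : Fin 112) = {j | X j} := by
    ext j
    constructor
    · rintro ⟨w, rfl⟩
      exact ⟨w.1, w.2, rfl⟩
    · rintro ⟨w, hw, rfl⟩
      exact ⟨⟨w, hw⟩, rfl⟩
  have hOS := orbit_stab (G := W) (0 : Fin 112)
  have hOc : (MulAction.orbit W (0 : Fin 112)).ncard = (Finset.univ.filter fun j : Fin 112 => X j).card := by
    rw [horb, Set.ncard_eq_toFinset_card']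
    congr 1
    ext j
    simp
  rw [hOc, hWc] at hOS
  have hS' : (S0.subgroupOf W) ≤ MulAction.stabilizer W (0 : Fin 112) := by
    intro x hx
    exact S0_fix x.1 hx
  have h729 : 729 ∣ Nat.card (MulAction.stabilizer W (0 : Fin 112)) := by
    have h1 := Subgroup.card_dvd_of_le hS'
    rwa [Nat.card_congr (Subgroup.subgroupOfEquivOfLe hSW).toEquiv, card_S0] at h1
  obtain ⟨m, hm⟩ := h729
  rw [hm] at hOS
  set n := (Finset.univ.filter fun j : Fin 112 => X j).card with hn
  have h40 : n * m = 40 := by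
    have : 729 * (n * m) = 729 * 40 := by
      calc 729 * (n * m) = n * (729 * m) := by ring
        _ = 29160 := hOS
        _ = 729 * 40 := by norm_num
    exact Nat.eq_of_mul_eq_mul_left (by norm_num) this
  have hnd : n ∣ 40 := ⟨m, h40.symm⟩
  -- the orbit is a single point
  have hsingle : n = 1 := by
    have hcases : n = 1 ∨ n = 4 := by
      have hn' : n = cond true 1 0 + cond (decide (Xn X r1)) 3 0 + cond (decide (Xn X r2)) 27 0 + cond (decide (Xn X r3)) 81 0 := by
        rw [hn, ← hcardX]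
        congr
      rw [hn'] at hnd ⊢
      exact dvd_cases _ _ _ hnd
    rcases hcases with h | h
    · exact h
    · exfalso
      -- an element of order 5 in `W`
      obtain ⟨t, ht⟩ := exists_prime_orderOf_dvd_card' (G := W) 5 (by rw [hWc]; norm_num)
      have ht' : orderOf (t : Equiv.Perm (Fin 112)) = 5 := by
        rw [← ht]
        exact Subgroup.orderOf_coe t
      have hfix := fix_of_small t.1 ht' {j | X j}
        (by
          rintro _ ⟨w, hw, rfl⟩
          exact ⟨t.1 * w, W.mul_mem t.2 hw, rfl⟩)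
        (by
          rintro _ ⟨w, hw, rfl⟩
          exact ⟨t.1⁻¹ * w, W.mul_mem (W.inv_mem t.2) hw, rfl⟩)
        (by
          rw [Set.ncard_eq_toFinset_card']
          have : ({j | X j} : Set (Fin 112)).toFinset = Finset.univ.filter fun j : Fin 112 => X j := by
            ext j
            simp
          rw [this, ← hn, h]
          norm_num)
      have h2 := fix_five t.1 (hWP t.2) ht'
      have h3 : (Finset.univ.filter fun j : Fin 112 => X j) ⊆ Finset.univ.filter fun j : Fin 112 => t.1 j = j := by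
        intro j hj
        simp only [Finset.mem_filter, Finset.mem_univ, true_and] at hj ⊢
        exact hfix j hj
      have h4 := Finset.card_le_card h3
      rw [← hn, h] at h4
      omega
  have hW0 : ∀ w ∈ W, w 0 = 0 := by
    intro w hw
    have h1 : (w 0) ∈ (Finset.univ.filter fun j : Fin 112 => X j) := by
      simp only [Finset.mem_filter, Finset.mem_univ, true_and]
      exact ⟨w, hw, rfl⟩
    have h0 : (0 : Fin 112) ∈ (Finset.univ.filter fun j : Fin 112 => X j) := by
      simp only [Finset.mem_filter, Finset.mem_univ, true_and]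
      exact hX0
    exact Finset.card_le_one.1 (by rw [← hn, hsingle]) _ h1 _ h0
  -- comparison of orders
  have hsub : W.subgroupOf P0 ≤ MulAction.stabilizer P0 (0 : Fin 112) := by
    intro x hx
    exact hW0 x.1 hx
  have hWc' : Nat.card (W.subgroupOf P0) = 29160 := by
    rw [Nat.card_congr (Subgroup.subgroupOfEquivOfLe hWP).toEquiv, hWc]
  have heq : W.subgroupOf P0 = MulAction.stabilizer P0 (0 : Fin 112) :=
    Subgroup.eq_of_le_of_card_ge hsub (by rw [hWc', card_stab0])
  intro x hx
  rw [← memW]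
  constructor
  · exact hW0 x
  · intro h0
    have h1 : (⟨x, hx⟩ : P0) ∈ MulAction.stabilizer P0 (0 : Fin 112) := h0
    rw [← heq] at h1
    exact h1

end Cfsg.Agent.Lib.McLRec.Pz
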