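import Cfsg.Agent.Lib.McLRec.Lines
import Cfsg.Agent.Lib.McLRec.Pz2

/-!
# `PSU₄(3)` as the group of degree 112
-/

set_option autoImplicit false
set_option maxRecDepth 100000
set_option linter.unusedSectionVars false
set_option linter.unusedVariables false
set_option linter.style.longLine false

namespace Cfsg.Agent.Lib.McLRec.Psi

open Cfsg Cfsg.Agent.Lib.Golay.Core Cfsg.Agent.Lib.U43.Seven Cfsg.Agent.Lib.McLRec.LData
  Cfsg.Agent.Lib.McLRec.Lines Cfsg.Agent.Lib.McLRec.Pz Cfsg.Agent.Lib.McLRec.CData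
open Cfsg.Agent.Lib.PermComp Cfsg.Agent.Lib.PermComp.Core
open Cfsg.Agent.Lib.U43.SevenPSU
open scoped Matrix

theorem chk_T : PZ_T = [cX, cB] := by decide +kernel

theorem chk_orthB : orthB MB = true := by decide +kernel
theorem chk_B2 : mmB MB MB MB2 = true := by decide +kernel
theorem chk_B3 : mmB MB2 MB Ic = true := by decide +kernel

theorem chk_repX : allUpTo (fun j => cond (Nat.blt (app 7 127 cX j) 112)
    (cond (inLB (app 7 127 cX j) (mvV Xc (uL j))) (inLB (app 7 127 cX j) (mvV Xc (vL j))) false) false) 112 = true := by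
  decide +kernel

theorem chk_repB : allUpTo (fun j => cond (Nat.blt (app 7 127 cB j) 112)
    (cond (inLB (app 7 127 cB j) (mvV MB (uL j))) (inLB (app 7 127 cB j) (mvV MB (vL j))) false) false) 112 = true := by
  decide +kernel

theorem chk_fix1 : allUpTo (fun j => cond (Nat.beq j 0) true
    (anyUpTo (fun c => !(Nat.beq (app 7 127 (nthN SZ_T c) j) j)) 4)) 112 = true := by
  decide +kernel

/-- `S₀` has a unique fixed point. -/
theorem S0_unique (y : Fin 112) (h : ∀ g ∈ S0, g y = y) : y = 0 := by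
  have h1 := allUpTo_iff.1 chk_fix1 y.1 y.2
  cases h2 : Nat.beq y.1 0 with
  | true => exact Fin.ext (Nat.eq_of_beq_eq_true h2)
  | false =>
    rw [h2, cond_false] at h1
    obtain ⟨c, hc, h3⟩ := anyUpTo_iff.1 h1
    obtain ⟨g, hg, hr⟩ := rep_nth c hc
    have h4 := rp_apply hr y
    rw [h g hg] at h4
    rw [← h4] at h3
    simp at h3

section Field

variable {K : Type} [Field K] [Fintype K] (hK : Fintype.card K = 9) {i : K} (hi : i * i = -1)

include hK hi

theorem iso_of_orth {N : ℕ} (hN : orthB N = true) (u v : Fin 4 → K) :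
    hermForm 4 K 3 (toK i N *ᵥ u) (toK i N *ᵥ v) = hermForm 4 K 3 u v := by
  have h3 := three_zero hK
  have H := cube_add hi h3
  have key : ∀ b c : Fin 4, toK i N 0 b * (toK i N 0 c) ^ 3 + toK i N 1 b * (toK i N 1 c) ^ 3 + toK i N 2 b * (toK i N 2 c) ^ 3 +
      toK i N 3 b * (toK i N 3 c) ^ 3 = if b = c then 1 else 0 := by
    intro b c
    have h1 := Nat.eq_of_beq_eq_true (allUpTo_iff.mp (allUpTo_iff.mp hN b.1 b.2) c.1 c.2)
    have h2 := congrArg (φ i) h1
    simp only [φ_add hi h3, φ_mul hi h3, φ_frob hi h3] at h2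
    have h4 : φ i (if b.1 = c.1 then 1 else 0) = if b = c then 1 else 0 := by
      by_cases h : b = c
      · subst h
        simp [φ_one hi h3]
      · have : b.1 ≠ c.1 := fun h' => h (Fin.ext h')
        simp [h, this, φ_zero hi h3]
    rw [h4] at h2
    exact h2
  have h00 := key 0 0
  have h01 := key 0 1
  have h02 := key 0 2
  have h03 := key 0 3
  have h10 := key 1 0
  have h11 := key 1 1
  have h12 := key 1 2
  have h13 := key 1 3
  have h20 := key 2 0
  have h21 := key 2 1
  have h22 := key 2 2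
  have h23 := key 2 3
  have h30 := key 3 0
  have h31 := key 3 1
  have h32 := key 3 2
  have h33 := key 3 3
  simp only [Fin.isValue, Fin.reduceEq, if_false, if_true] at h00 h01 h02 h03 h10 h11 h12 h13 h20 h21 h22 h23 h30 h31 h32 h33
  generalize toK i N = X at *
  simp only [hermForm, Matrix.mulVec, dotProduct, Fin.sum_univ_four, H, mul_pow]
  linear_combination u 0 * (v 0) ^ 3 * h00 + u 0 * (v 1) ^ 3 * h01 + u 0 * (v 2) ^ 3 * h02 + u 0 * (v 3) ^ 3 * h03 +
    u 1 * (v 0) ^ 3 * h10 + u 1 * (v 1) ^ 3 * h11 + u 1 * (v 2) ^ 3 * h12 + u 1 * (v 3) ^ 3 * h13 +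
    u 2 * (v 0) ^ 3 * h20 + u 2 * (v 1) ^ 3 * h21 + u 2 * (v 2) ^ 3 * h22 + u 2 * (v 3) ^ 3 * h23 +
    u 3 * (v 0) ^ 3 * h30 + u 3 * (v 1) ^ 3 * h31 + u 3 * (v 2) ^ 3 * h32 + u 3 * (v 3) ^ 3 * h33

theorem det_B : (toK i MB).det = 1 := by
  have h3 := three_zero hK
  have h1 : toK i MB * toK i MB * toK i MB = 1 := by
    rw [mm_toK hi h3 chk_B2, mm_toK hi h3 chk_B3, id_toK hi h3]
  have h2 := congrArg Matrix.det h1
  rw [Matrix.det_mul, Matrix.det_mul, Matrix.det_one] at h2
  set d := (toK i MB).det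
  have h4 : (d - 1) ^ 3 = 0 := by
    have : (d - 1) ^ 3 = d * d * d - 1 - 3 * (d * d - d) := by ring
    rw [this, h2, h3]
    ring
  exact sub_eq_zero.1 (pow_eq_zero_iff (by norm_num) |>.1 h4)

/-- The transvection in `SU₄(3)`. -/
noncomputable def bH : ↥(SU 4 K 3) :=
  ⟨⟨toK i MB, det_B hK hi⟩, iso_of_orth hK hi chk_orthB⟩

theorem rep_gen {g : ↥(SU 4 K 3)} {M c : ℕ} (hg : (g.1.1 : Matrix (Fin 4) (Fin 4) K) = toK i M)
    (hc : allUpTo (fun j => cond (Nat.blt (app 7 127 c j) 112)
      (cond (inLB (app 7 127 c j) (mvV M (uL j))) (inLB (app 7 127 c j) (mvV M (vL j))) false) false) 112 = true) :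
    Rp c (psi hi (three_zero hK) hK g) := by
  have h3 := three_zero hK
  intro j
  have h1 := allUpTo_iff.1 hc j.1 j.2
  cases h2 : Nat.blt (app 7 127 c j.1) 112 with
  | false => rw [h2, cond_false] at h1; exact absurd h1 (by simp)
  | true =>
    rw [h2, cond_true] at h1
    cases h4 : inLB (app 7 127 c j.1) (mvV M (uL j.1)) with
    | false => rw [h4, cond_false] at h1; exact absurd h1 (by simp)
    | true =>
      rw [h4, cond_true] at h1
      have hlt : app 7 127 c j.1 < 112 := Nat.le_of_ble_eq_true h2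
      have e := psi_of_mem hi h3 hK (g := g) (j := j) (k := ⟨_, hlt⟩)
        (by
          rw [lm_apply, hg, toK_mul_toV hi h3]
          exact mem_of_inLB hi h3 h4)
        (by
          rw [lm_apply, hg, toK_mul_toV hi h3]
          exact mem_of_inLB hi h3 h1)
      show app 7 127 c j.1 = ((psi hi h3 hK g j : Fin 112) : ℕ)
      rw [e]

theorem rep_x : Rp cX (psi hi (three_zero hK) hK (xH hK hi)) := rep_gen hK hi rfl chk_repX

theorem rep_b : Rp cB (psi hi (three_zero hK) hK (bH hK hi)) := rep_gen hK hi rfl chk_repB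

theorem P0_le_range : P0 ≤ (psi hi (three_zero hK) hK).range := by
  apply (Subgroup.closure_le _).2
  rintro g ⟨c, hc, hg⟩
  rw [chk_T] at hc
  simp only [List.mem_cons, List.not_mem_nil, or_false] at hc
  rcases hc with rfl | rfl
  · rw [hg.unique (rep_x hK hi)]
    exact ⟨_, rfl⟩
  · rw [hg.unique (rep_b hK hi)]
    exact ⟨_, rfl⟩

theorem center_trivial (z : ↥(SU 4 K 3)) (hz : z ∈ Subgroup.center ↥(SU 4 K 3)) :
    psi hi (three_zero hK) hK z = 1 := by
  set Ψ := psi hi (three_zero hK) hK with hΨ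
  have hcomm : ∀ p ∈ P0, ∀ j, Ψ z (p j) = p (Ψ z j) := by
    intro p hp j
    obtain ⟨q, rfl⟩ := P0_le_range hK hi hp
    have h1 : z * q = q * z := (Subgroup.mem_center_iff.1 hz q).symm
    have h2 := congrArg Ψ h1
    rw [map_mul, map_mul] at h2
    exact DFunLike.congr_fun h2 j
  have h0 : Ψ z 0 = 0 := by
    apply S0_unique
    intro g hg
    rw [← hcomm g (S0_le hg), S0_fix g hg]
  ext j
  obtain ⟨p, hp, rfl⟩ := trans_P0 j
  rw [hcomm p hp, h0]
  rfl

/-- The homomorphism from `PSU₄(3)` to the group of degree 112. -/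
theorem exists_rho : ∃ ρ : PSU 4 K 3 →* Equiv.Perm (Fin 112), Function.Injective ρ ∧ ρ.range = P0 := by
  have h3 := three_zero hK
  let ρ : PSU 4 K 3 →* Equiv.Perm (Fin 112) :=
    QuotientGroup.lift (Subgroup.center ↥(SU 4 K 3)) (psi hi h3 hK) (fun z hz => center_trivial hK hi z hz)
  have hrange : P0 ≤ ρ.range := by
    intro g hg
    obtain ⟨q, hq⟩ := P0_le_range hK hi hg
    exact ⟨(q : PSU 4 K 3), hq⟩
  have hcard : Nat.card (PSU 4 K 3) = 3265920 := card_PSU43 hK
  haveI : Finite (PSU 4 K 3) := Nat.finite_of_card_ne_zero (by rw [hcard]; norm_num)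
  have hle : Nat.card ρ.range ≤ 3265920 := by
    rw [← hcard]
    exact Nat.card_le_card_of_surjective _ ρ.rangeRestrict_surjective
  have heq : P0 = ρ.range := Subgroup.eq_of_le_of_card_ge hrange (by rw [card_P0]; exact hle)
  refine ⟨ρ, ?_, heq.symm⟩
  have hsurj : Function.Surjective ρ.rangeRestrict := ρ.rangeRestrict_surjective
  have hbij := hsurj.bijective_of_nat_card_le (by rw [← heq, card_P0, hcard])
  intro a b hab
  apply hbij.1
  exact Subtype.ext hab

end Field

end Cfsg.Agent.Lib.McLRec.Psi
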