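import Mathlib

/-!
# The orbits of the Sylow 3-subgroup on the 112 lines
-/

set_option autoImplicit false
set_option maxRecDepth 100000

namespace Cfsg.Agent.Lib.McLRec.SData

/-- The labels of the orbits. -/
def labT : ℕ := nat_lit 0xaa9fbfeaeeaaaf5febfbfbffbfefffefbfffffeefffffffffffffffc
/-- Roots. -/
def r1 : ℕ := 82
def r2 : ℕ := 32
def r3 : ℕ := 1
/-- Trees. -/
def E1 : List (ℕ × ℕ × ℕ) := [(83, 2, 82), (106, 2, 83)]
def E2 : List (ℕ × ℕ × ℕ) := [(94, 0, 32), (111, 1, 32), (34, 2, 32), (97, 3, 32), (96, 0, 94), (98, 2, 94), (110, 3, 94), (88, 3, 111), (86, 0, 34), (92, 3, 34), (50, 0, 97), (63, 3, 97), (89, 1, 96), (78, 3, 96), (91, 0, 98), (77, 0, 110), (47, 1, 110), (90, 3, 110), (58, 3, 88), (109, 3, 92), (107, 0, 50), (87, 3, 50), (103, 0, 63), (73, 3, 78), (108, 3, 77), (69, 0, 90)]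
def E3 : List (ℕ × ℕ × ℕ) := [(66, 0, 1), (64, 1, 1), (55, 2, 1), (44, 0, 66), (14, 1, 66), (29, 2, 66), (31, 0, 64), (68, 1, 64), (35, 2, 64), (30, 3, 64), (59, 2, 55), (49, 3, 55), (56, 1, 44), (25, 2, 44), (4, 0, 14), (5, 1, 14), (39, 2, 14), (57, 3, 14), (8, 0, 29), (48, 2, 29), (105, 3, 29), (84, 0, 31), (101, 2, 31), (75, 3, 31), (85, 3, 68), (80, 0, 35), (51, 2, 35), (17, 3, 35), (74, 1, 30), (37, 0, 59), (71, 0, 49), (28, 2, 49), (40, 3, 49), (38, 0, 56), (27, 1, 56), (52, 2, 56), (15, 3, 56), (93, 0, 25), (81, 2, 25), (41, 3, 25), (9, 0, 4), (46, 3, 4), (21, 3, 5), (22, 2, 39), (99, 3, 39), (13, 1, 57), (2, 2, 57), (70, 0, 8), (104, 2, 8), (62, 0, 48), (76, 2, 105), (18, 2, 84), (12, 2, 101), (10, 3, 101), (42, 2, 80), (36, 0, 51), (6, 3, 51), (60, 0, 17), (72, 2, 17), (33, 1, 37), (95, 3, 37), (16, 2, 71), (20, 3, 71), (3, 0, 28), (102, 2, 40), (45, 0, 38), (11,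 3, 38), (7, 3, 27), (79, 0, 52), (43, 3, 52), (67, 1, 15), (23, 2, 15), (100, 2, 93), (61, 3, 93), (26, 2, 99), (53, 2, 2), (19, 2, 70), (65, 0, 62), (54, 2, 10), (24, 0, 72)]

end Cfsg.Agent.Lib.McLRec.SData
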