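import Cfsg.Agent.Lib.McLRec.CChk
import Cfsg.Agent.Lib.McLRec.SData
import Cfsg.Agent.Lib.Golay.Core

/-!
# The group `P₀` of degree 112, its Sylow 3-subgroup `S₀` and an element of order 5
-/

set_option autoImplicit false
set_option maxRecDepth 100000
set_option linter.unusedSectionVars false
set_option linter.unusedVariables false
set_option linter.style.longLine false

namespace Cfsg.Agent.Lib.McLRec.Pz

open Cfsg.Agent.Lib.PermComp Cfsg.Agent.Lib.PermComp.Core Cfsg.Agent.Lib.McLRec.CData Cfsg.Agent.Lib.McLRec.SData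
open Cfsg.Agent.Lib.Golay.Core (allUpTo allUpTo_iff)

abbrev Rp (c : ℕ) (g : Equiv.Perm (Fin 112)) : Prop := Core.Rep 7 127 (Equiv.refl (Fin 112)) c g

abbrev P0 : Subgroup (Equiv.Perm (Fin 112)) := Core.H 7 127 (Equiv.refl (Fin 112)) PZ_T
abbrev S0 : Subgroup (Equiv.Perm (Fin 112)) := Core.H 7 127 (Equiv.refl (Fin 112)) SZ_T

theorem rp_apply {c : ℕ} {g : Equiv.Perm (Fin 112)} (h : Rp c g) (j : Fin 112) : ((g j : Fin 112) : ℕ) = app 7 127 c j.1 :=
  (h j).symm

theorem chk_validP : allL (Simple.validB 112 7 127 PZ_idc) PZ_T = true := by decide +kernel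
theorem chk_validS : allL (Simple.validB 112 7 127 PZ_idc) SZ_T = true := by decide +kernel
theorem chk_validU : Simple.validB 112 7 127 PZ_idc uF = true := by decide +kernel
theorem chk_id : allL (fun i => Nat.beq (app 7 127 PZ_idc i) i) (List.range 112) = true := by decide +kernel

theorem hm7 : (127 : ℕ) = 2 ^ 7 - 1 := by norm_num

theorem hid : ∀ i < 112, app 7 127 PZ_idc i = i := fun i hi =>
  Nat.eq_of_beq_eq_true ((allL_eq_true _ _).1 chk_id i (List.mem_range.2 hi))

theorem exists_rep {c : ℕ} (h : Simple.validB 112 7 127 PZ_idc c = true) : ∃ g, Rp c g :=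
  Simple.exists_rep_of_valid hm7 hid h

theorem main_P : (127 : ℕ) = 2 ^ 7 - 1 ∧ (∀ i < 112, app 7 127 PZ_idc i = i) ∧ PZ_idc < 2 ^ (112 * 7) ∧
    Sem 7 127 (Equiv.refl (Fin 112)) PZ_L PZ_maskL PZ_levels ∧
    H 7 127 (Equiv.refl (Fin 112)) PZ_T = H 7 127 (Equiv.refl (Fin 112)) (topGens PZ_levels) ∧
    Nat.card (H 7 127 (Equiv.refl (Fin 112)) PZ_T) = orderC PZ_levels := Core.main_of_checkAll (n := 112) (w := 7) (mask := 127) (e := Equiv.refl (Fin 112))
  (L := PZ_L) (maskL := PZ_maskL) (idc := PZ_idc) (T := PZ_T) (prog := PZ_prog) (ls := PZ_levels)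
  (fun c hc => exists_rep ((allL_eq_true _ _).1 chk_validP c hc)) chk_PZ

theorem main_S : (127 : ℕ) = 2 ^ 7 - 1 ∧ (∀ i < 112, app 7 127 SZ_idc i = i) ∧ SZ_idc < 2 ^ (112 * 7) ∧
    Sem 7 127 (Equiv.refl (Fin 112)) SZ_L SZ_maskL SZ_levels ∧
    H 7 127 (Equiv.refl (Fin 112)) SZ_T = H 7 127 (Equiv.refl (Fin 112)) (topGens SZ_levels) ∧
    Nat.card (H 7 127 (Equiv.refl (Fin 112)) SZ_T) = orderC SZ_levels := Core.main_of_checkAll (n := 112) (w := 7) (mask := 127) (e := Equiv.refl (Fin 112))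
  (L := SZ_L) (maskL := SZ_maskL) (idc := SZ_idc) (T := SZ_T) (prog := SZ_prog) (ls := SZ_levels)
  (fun c hc => exists_rep ((allL_eq_true _ _).1 chk_validS c hc)) chk_SZ

theorem card_P0 : Nat.card P0 = 3265920 := by
  rw [main_P.2.2.2.2.2, ord_PZ]

theorem card_S0 : Nat.card S0 = 729 := by
  rw [main_S.2.2.2.2.2, ord_SZ]

/-- Membership in `P₀` by sifting. -/
theorem mem_P0_of_sift {c : ℕ} {g : Equiv.Perm (Fin 112)} (hg : Rp c g) (hlt : c < 2 ^ (112 * 7))
    (hs : sift 112 7 127 PZ_L PZ_maskL PZ_idc PZ_levels c = true) : g ∈ P0 := by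
  have h := (Chain.mem_H_iff_sift main_P.1 main_P.2.1 main_P.2.2.1 main_P.2.2.2.1 hg hlt).2 hs
  show g ∈ H 7 127 (Equiv.refl (Fin 112)) PZ_T
  rw [main_P.2.2.2.2.1]
  exact h

theorem chk_siftS : allL (fun c => ifB (Nat.blt c (2 ^ (112 * 7))) (sift 112 7 127 PZ_L PZ_maskL PZ_idc PZ_levels c)) SZ_T = true := by
  decide +kernel

theorem chk_siftU : ifB (Nat.blt uF (2 ^ (112 * 7))) (sift 112 7 127 PZ_L PZ_maskL PZ_idc PZ_levels uF) = true := by
  decide +kernel

theorem S0_le : S0 ≤ P0 := by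
  apply (Subgroup.closure_le _).2
  rintro g ⟨c, hc, hg⟩
  have h := (allL_eq_true _ _).1 chk_siftS c hc
  rw [ifB_eq_true] at h
  exact mem_P0_of_sift hg (Nat.le_of_ble_eq_true h.1) h.2

/-! ### The element of order 5 -/

theorem exists_u : ∃ u ∈ P0, Rp uF u := by
  obtain ⟨u, hu⟩ := exists_rep chk_validU
  have h := chk_siftU
  rw [ifB_eq_true] at h
  exact ⟨u, mem_P0_of_sift hu (Nat.le_of_ble_eq_true h.1) h.2, hu⟩

theorem chk_u5 : allUpTo (fun j => Nat.beq (app 7 127 uF (app 7 127 uF (app 7 127 uF (app 7 127 uF (app 7 127 uF j))))) j) 112 = true := by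
  decide +kernel

/-- The two fixed points of the element of order 5. -/
def uFix : List ℕ := (List.range 112).filter (fun j => Nat.beq (app 7 127 uF j) j)

theorem chk_uFix : uFix.length = 2 := by decide +kernel

theorem u_props {u : Equiv.Perm (Fin 112)} (hu : Rp uF u) :
    orderOf u = 5 ∧ (Finset.univ.filter fun j : Fin 112 => u j = j).card = 2 := by
  have hfix : ∀ j : Fin 112, (u j).1 = app 7 127 uF j.1 := rp_apply hu
  constructor
  · haveI : Fact (Nat.Prime 5) := ⟨by norm_num⟩
    apply orderOf_eq_prime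
    · ext j
      have h := Nat.eq_of_beq_eq_true (allUpTo_iff.1 chk_u5 j.1 j.2)
      show ((u ^ 5) j).1 = j.1
      simp only [pow_succ, pow_zero, one_mul, Equiv.Perm.mul_apply]
      rw [hfix, hfix, hfix, hfix, hfix]
      exact h
    · intro h
      have h1 := hfix ⟨0, by norm_num⟩
      rw [h] at h1
      exact absurd h1 (by decide +kernel)
  · have h1 : (Finset.univ.filter fun j : Fin 112 => u j = j).card = (uFix.toFinset).card := by
      apply Finset.card_bij (fun j _ => j.1)
      · intro j hj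
        simp only [Finset.mem_filter, Finset.mem_univ, true_and] at hj
        simp only [List.mem_toFinset, uFix, List.mem_filter, List.mem_range]
        refine ⟨j.2, ?_⟩
        rw [← hfix, hj]
        exact Nat.beq_refl _
      · intro a _ b _ h
        exact Fin.ext h
      · intro x hx
        simp only [List.mem_toFinset, uFix, List.mem_filter, List.mem_range] at hx
        refine ⟨⟨x, hx.1⟩, ?_, rfl⟩
        simp only [Finset.mem_filter, Finset.mem_univ, true_and]
        apply Fin.ext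
        rw [hfix]
        exact Nat.eq_of_beq_eq_true hx.2
    rw [h1, List.toFinset_card_of_nodup (by unfold uFix; exact List.Nodup.filter _ List.nodup_range), chk_uFix]

/-! ### Trees -/

/-- The check of a tree. -/
noncomputable def treeChk (ok : ℕ → ℕ → ℕ → Bool) (E : List (ℕ × ℕ × ℕ)) : ℕ → Bool :=
  List.rec (motive := fun _ => ℕ → Bool) (fun _ => true)
    (fun e _ ih vis => ifB (bit vis e.2.2) (ifB (ok e.2.1 e.2.2 e.1) (force (setBit vis e.1) ih))) E

theorem tree_sound {P : ℕ → Prop} {ok : ℕ → ℕ → ℕ → Bool} (hok : ∀ c y x, ok c y x = true → (P y ↔ P x)) {r : ℕ} :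
    ∀ (E : List (ℕ × ℕ × ℕ)) (vis : ℕ), treeChk ok E vis = true → (∀ y, bit vis y = true → (P y ↔ P r)) →
      ∀ x, bit (treeMem E vis) x = true → (P x ↔ P r) := by
  intro E
  induction E with
  | nil =>
    intro vis _ h x hx
    exact h x hx
  | cons e E ih =>
    intro vis hc h x hx
    have hc' : ifB (bit vis e.2.2) (ifB (ok e.2.1 e.2.2 e.1) (force (setBit vis e.1) (treeChk ok E))) = true := hc
    rw [ifB_eq_true, ifB_eq_true, force_eq] at hc'
    obtain ⟨h1, h2, h3⟩ := hc'
    rw [treeMem_cons] at hx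
    refine ih (setBit vis e.1) h3 ?_ x hx
    intro y hy
    rw [bit_setBit] at hy
    rcases hy with hy | hy
    · exact h y hy
    · subst hy
      exact (hok _ _ _ h2).symm.trans (h _ h1)

/-- The generators of `S₀`. -/
noncomputable def okS (c y x : ℕ) : Bool :=
  ifB (Nat.blt y 112) (ifB (Nat.blt c 4) (Nat.beq (app 7 127 (nthN SZ_T c) y) x))

theorem chk_E1 : treeChk okS E1 (setBit 0 r1) = true := by decide +kernel
theorem chk_E2 : treeChk okS E2 (setBit 0 r2) = true := by decide +kernel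
theorem chk_E3 : treeChk okS E3 (setBit 0 r3) = true := by decide +kernel

/-- The labels. -/
def lab (j : ℕ) : ℕ := Nat.land (Nat.shiftRight labT (2 * j)) 3

theorem chk_lab : allUpTo (fun j =>
    cond (Nat.beq (lab j) 0) (Nat.beq j 0)
      (cond (Nat.beq (lab j) 1) (bit (treeMem E1 (setBit 0 r1)) j)
        (cond (Nat.beq (lab j) 2) (bit (treeMem E2 (setBit 0 r2)) j)
          (cond (Nat.beq (lab j) 3) (bit (treeMem E3 (setBit 0 r3)) j) false)))) 112 = true := by
  decide +kernel

theorem chk_len : SZ_T.length = 4 := by decide +kernel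

theorem rep_nth (c : ℕ) (hc : c < 4) : ∃ g ∈ S0, Rp (nthN SZ_T c) g := by
  have hmem : nthN SZ_T c ∈ SZ_T := nthN_mem _ _ (by rw [chk_len]; exact hc)
  obtain ⟨g, hg⟩ := exists_rep ((allL_eq_true _ _).1 chk_validS _ hmem)
  exact ⟨g, H_of_rep hmem hg, hg⟩

/-- Invariance under `S₀`. -/
def Inv (X : Fin 112 → Prop) : Prop := ∀ g ∈ S0, ∀ j, X (g j) ↔ X j

/-- The extension of a predicate to numbers. -/
def Xn (X : Fin 112 → Prop) (j : ℕ) : Prop := ∃ h : j < 112, X ⟨j, h⟩

theorem Xn_iff (X : Fin 112 → Prop) (j : Fin 112) : Xn X j.1 ↔ X j :=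
  ⟨fun ⟨_, h⟩ => h, fun h => ⟨j.2, h⟩⟩

theorem okS_iff {X : Fin 112 → Prop} (hX : Inv X) (c y x : ℕ) (h : okS c y x = true) : Xn X y ↔ Xn X x := by
  simp only [okS, ifB_eq_true] at h
  obtain ⟨h1, h2, h3⟩ := h
  have hy : y < 112 := Nat.le_of_ble_eq_true h1
  have hc : c < 4 := Nat.le_of_ble_eq_true h2
  obtain ⟨g, hg, hr⟩ := rep_nth c hc
  have h4 : ((g ⟨y, hy⟩ : Fin 112) : ℕ) = x := by
    rw [rp_apply hr]
    exact Nat.eq_of_beq_eq_true h3
  have e1 : Xn X y ↔ X ⟨y, hy⟩ := Xn_iff X ⟨y, hy⟩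
  rw [e1, ← h4, Xn_iff]
  exact (hX g hg _).symm

theorem tree_iff {X : Fin 112 → Prop} (hX : Inv X) {E : List (ℕ × ℕ × ℕ)} {r : ℕ}
    (hc : treeChk okS E (setBit 0 r) = true) {x : ℕ} (hx : bit (treeMem E (setBit 0 r)) x = true) :
    Xn X x ↔ Xn X r := by
  refine tree_sound (fun c y x h => okS_iff hX c y x h) E _ hc ?_ x hx
  intro y hy
  rw [bit_setBit] at hy
  rcases hy with hy | hy
  · exact absurd hy (by simp [bit])
  · rw [hy]

/-- Selection by a label. -/
def sel (a b c d : Bool) (t : ℕ) : Bool :=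
  cond (Nat.beq t 0) a (cond (Nat.beq t 1) b (cond (Nat.beq t 2) c d))

theorem card_sel : ∀ a b c d : Bool, (Finset.univ.filter fun j : Fin 112 => sel a b c d (lab j.1) = true).card =
    cond a 1 0 + cond b 3 0 + cond c 27 0 + cond d 81 0 := by
  decide +kernel

open Classical in
theorem inv_sel {X : Fin 112 → Prop} (hX : Inv X) (j : Fin 112) :
    X j ↔ sel (decide (Xn X 0)) (decide (Xn X r1)) (decide (Xn X r2)) (decide (Xn X r3)) (lab j.1) = true := by
  have h0 := allUpTo_iff.1 chk_lab j.1 j.2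
  rw [← Xn_iff X j]
  cases e0 : Nat.beq (lab j.1) 0 with
  | true =>
    rw [e0, cond_true] at h0
    have e : j.1 = 0 := Nat.eq_of_beq_eq_true h0
    simp only [sel, e0, cond_true, decide_eq_true_eq]
    rw [e]
  | false =>
    rw [e0, cond_false] at h0
    cases e1 : Nat.beq (lab j.1) 1 with
    | true =>
      rw [e1, cond_true] at h0
      simp only [sel, e0, e1, cond_true, cond_false, decide_eq_true_eq]
      exact tree_iff hX chk_E1 h0
    | false =>
      rw [e1, cond_false] at h0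
      cases e2 : Nat.beq (lab j.1) 2 with
      | true =>
        rw [e2, cond_true] at h0
        simp only [sel, e0, e1, e2, cond_true, cond_false, decide_eq_true_eq]
        exact tree_iff hX chk_E2 h0
      | false =>
        rw [e2, cond_false] at h0
        cases e3 : Nat.beq (lab j.1) 3 with
        | true =>
          rw [e3, cond_true] at h0
          simp only [sel, e0, e1, e2, cond_true, cond_false, decide_eq_true_eq]
          exact tree_iff hX chk_E3 h0
        | false =>
          rw [e3, cond_false] at h0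
          exact absurd h0 (by simp)

open Classical in
/-- The size of an invariant set. -/
theorem inv_card {X : Fin 112 → Prop} (hX : Inv X) :
    (Finset.univ.filter fun j : Fin 112 => X j).card =
      cond (decide (Xn X 0)) 1 0 + cond (decide (Xn X r1)) 3 0 + cond (decide (Xn X r2)) 27 0 + cond (decide (Xn X r3)) 81 0 := by
  rw [← card_sel]
  congr 1
  ext j
  simp only [Finset.mem_filter, Finset.mem_univ, true_and]
  exact inv_sel hX j

/-- A general Sylow argument. -/
theorem exists_conj_of_card {α : Type*} [Finite α] (P : Subgroup (Equiv.Perm α)) (A B : Subgroup (Equiv.Perm α)) (hA : A ≤ P) (hB : B ≤ P)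
    (q : ℕ) [Fact q.Prime] (hAc : Nat.card A = q ^ (Nat.card P).factorization q)
    (hBc : Nat.card B = q ^ (Nat.card P).factorization q) :
    ∃ g ∈ P, ∀ x, x ∈ A → g * x * g⁻¹ ∈ B := by
  have hA' : Nat.card (A.subgroupOf P) = q ^ (Nat.card P).factorization q := by
    rw [Nat.card_congr (Subgroup.subgroupOfEquivOfLe hA).toEquiv, hAc]
  have hB' : Nat.card (B.subgroupOf P) = q ^ (Nat.card P).factorization q := by
    rw [Nat.card_congr (Subgroup.subgroupOfEquivOfLe hB).toEquiv, hBc]
  let S1 : Sylow q P := Sylow.ofCard (A.subgroupOf P) hA'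
  let S2 : Sylow q P := Sylow.ofCard (B.subgroupOf P) hB'
  obtain ⟨t, ht⟩ := MulAction.exists_smul_eq P S1 S2
  refine ⟨t.1, t.2, fun x hx => ?_⟩
  have h1 : (⟨x, hA hx⟩ : P) ∈ (S1 : Subgroup P) := hx
  have h2 : (t * ⟨x, hA hx⟩ * t⁻¹ : P) ∈ (S2 : Subgroup P) := by
    rw [← ht, Sylow.coe_subgroup_smul, Subgroup.mem_smul_pointwise_iff_exists]
    exact ⟨_, h1, rfl⟩
  exact h2

theorem fac3 : (729 : ℕ) = 3 ^ (Nat.card P0).factorization 3 := by
  rw [card_P0]
  exact Simple.factorization_of_check (by norm_num) (by norm_num [Nat.log]) (by norm_num) (by norm_num) (by norm_num)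

theorem fac5 : (5 : ℕ) = 5 ^ (Nat.card P0).factorization 5 := by
  rw [card_P0]
  exact Simple.factorization_of_check (by norm_num) (by norm_num [Nat.log]) (by norm_num) (by norm_num) (by norm_num)

end Cfsg.Agent.Lib.McLRec.Pz
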