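import Cfsg.Agent.Lib.McLRec.Aut
import Cfsg.Agent.Lib.McLRec.Hemi
import Cfsg.Agent.Lib.McLRec.Pz2
import Cfsg.Agent.Lib.McLRec.LData

/-!
# Checks on the graph on 275 points
-/

set_option autoImplicit false
set_option maxRecDepth 100000
set_option linter.unusedSectionVars false
set_option linter.unusedVariables false
set_option linter.style.longLine false

namespace Cfsg.Agent.Lib.McLRec.Tab

open Cfsg.Agent.Lib.PermComp.Core Cfsg.Agent.Lib.McLRec.GData Cfsg.Agent.Lib.McLRec.Aut
  Cfsg.Agent.Lib.McLRec.Hemi Cfsg.Agent.Lib.McLRec.LData Cfsg.Agent.Lib.McLRec.Pz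
open Cfsg.Agent.Lib.Golay.Core (allUpTo allUpTo_iff)

/-- The neighbours of `0`. -/
def Dn (j : ℕ) : ℕ := app 9 511 DL j
/-- The non-neighbours of `0`. -/
def Sn (y : ℕ) : ℕ := app 9 511 SL y
/-- Collinearity. -/
def col (j k : ℕ) : Bool := A0 (Dn j) (Dn k)

theorem chk_D : allUpTo (fun j => ifB (Nat.blt (Dn j) 275) (A0 0 (Dn j))) 112 = true := by decide +kernel
theorem chk_S : allUpTo (fun y => ifB (Nat.blt (Sn y) 275) (!(A0 0 (Sn y)))) 162 = true := by decide +kernel
theorem chk_00 : A0 0 0 = false := by decide +kernel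
theorem chk_Dinj : allUpTo (fun j => allUpTo (fun k => Nat.beq j k || !(Nat.beq (Dn j) (Dn k))) 112) 112 = true := by decide +kernel
theorem chk_Sinj : allUpTo (fun j => allUpTo (fun k => Nat.beq j k || !(Nat.beq (Sn j) (Sn k))) 162) 162 = true := by decide +kernel
theorem chk_symm : allUpTo (fun i => allUpTo (fun j => iffB (A0 i j) (A0 j i)) 275) 275 = true := by decide +kernel
theorem chk_loop : allUpTo (fun i => !(A0 i i)) 275 = true := by decide +kernel

/-- Cliques. -/
theorem chk_cl : allUpTo (fun l => allUpTo (fun s => allUpTo (fun t =>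
    Nat.beq s t || col (gl l s) (gl l t)) 4) 4) 280 = true := by decide +kernel

theorem chk_gen_col : allL (fun c => allUpTo (fun j => allUpTo (fun k =>
    iffB (col (app 7 127 c j) (app 7 127 c k)) (col j k)) 112) 112) [cX, cB] = true := by decide +kernel

theorem chk_tau_col : allL (fun c => allUpTo (fun j => allUpTo (fun k =>
    iffB (col (app 7 127 c j) (app 7 127 c k)) (col j k)) 112) 112) TAU = true := by decide +kernel

theorem chk_lab0 : allUpTo (fun j => iffB (col 0 j) (sel false true true false (lab j))) 112 = true := by decide +kernel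

theorem chk_tau_sol : allUpTo (fun i => force (nthN TAU i) fun c => allUpTo (fun y => force (sol (162 * i + y)) fun s => force (Sn y) fun v =>
    allUpTo (fun j => iffB (bit s j) (A0 (Dn (app 7 127 c j)) v)) 112) 162) 4 = true := by decide +kernel

theorem chk_sol_dist : allUpTo (fun s => force (sol s) fun m => allUpTo (fun t => Nat.beq s t || !(Nat.beq m (sol t))) 648) 648 = true := by
  decide +kernel

/-- The number of common neighbours in the first part. -/
noncomputable def inter (y z : ℕ) : ℕ :=
  force (Sn y) fun v => force (Sn z) fun w => cntB (fun j => force (Dn j) fun d => ifB (A0 d v) (A0 d w)) 112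

theorem chk_inter : allUpTo (fun y => allUpTo (fun z => Nat.beq y z || A0 (Sn y) (Sn z) || Nat.ble 31 (inter y z)) 162) 162 = true := by
  decide +kernel

theorem chk_deg : allUpTo (fun y => force (Sn y) fun v => Nat.beq (cntB (fun z => A0 v (Sn z)) 162) 56) 162 = true := by
  decide +kernel

theorem chk_degB : allUpTo (fun y => force (Sn y) fun v => Nat.beq (cntB (fun j => A0 (Dn j) v) 112) 56) 162 = true := by
  decide +kernel

end Cfsg.Agent.Lib.McLRec.Tab
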